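import Cfsg.Agent.SZR.Defs

/-! Finite computations in the field with 8 elements, I. -/

set_option autoImplicit false

namespace Cfsg.Agent.SZR

open Subgroup H13 H49 SZS

theorem Bf_eq (c ν : K8) (p q : V) : Bf c ν p q = cm p.2.1 q.2.1 + (p.1 * q.2.2 + q.1 * p.2.2) +
    c * (p.2.1 * q.2.2 * (p.2.1 * q.2.2) + q.2.1 * p.2.2 * (q.2.1 * p.2.2)) := by
  simp only [Bf, Qf, Prod.fst_add, Prod.snd_add, N_add]; grind
theorem Bf_comm (c ν : K8) (p q : V) : Bf c ν p q = Bf c ν q p := by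
  rw [Bf, Bf, add_comm p q, add_right_comm]
theorem Bf_add (c ν : K8) (p q r : V) : Bf c ν p (q + r) = Bf c ν p q + Bf c ν p r := by
  simp only [Bf_eq, Prod.fst_add, Prod.snd_add, cm_add_right]; grind
theorem Qf_add (c ν : K8) (p q : V) : Qf c ν (p + q) = Qf c ν p + Qf c ν q + Bf c ν p q := by
  rw [Bf]; grind
theorem Qf_eta (c ν : K8) (p : V) : Qf c ν (eta p) = N (k 2) * Qf c ν p := by
  have e : k 2 * N (k 2) * (k 2 * N (k 2)) = N (k 2) := by decide +kernel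
  simp only [Qf, eta, N_mul]
  linear_combination c * (p.2.1 * p.2.2 * (p.2.1 * p.2.2)) * e
theorem Iso.bf {D : K8 → Prop} (hD : ∀ a b, D a → D b → D (a + b)) {c ν : K8} {g : V → V}
    {γ : K8 → K8} (h : Iso D c ν g γ) {p q : V} (hp : D p.1) (hq : D q.1) :
    Bf c ν (g p) (g q) = γ (Bf c ν p q) := by
  rw [Bf, Bf, ← h.add p q hp hq, h.sq _ (hD _ _ hp hq), h.sq p hp, h.sq q hq, h.gadd, h.gadd]
theorem cm_surj (b : K8) : ∃ a x : K8, b = cm a x := by revert b; decide +kernel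

theorem tr_add : ∀ a b : K8, tr (a + b) = tr a + tr b := by decide +kernel

theorem neg_K8 : ∀ a : K8, -a = a := by decide +kernel

/-- the subgroups of `K8` as bit masks -/
def subL : List ℕ := [1, 3, 5, 9, 15, 17, 33, 51, 65, 85, 105, 129, 153, 165, 195, 255]

/-- the number of elements of a bit mask -/
def cnt (f : K8 → Bool) : ℕ := (Finset.univ.filter fun a => f a = true).card

theorem subs_aux : ∀ f : K8 → Bool, f 0 → (∀ a, f a → ∀ b, f b → f (a + b)) →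
    ∃ n ∈ subL, ∀ a, f a = n.testBit a.val := by decide +kernel

theorem subs (Y : AddSubgroup K8) : ∃ n ∈ subL, (∀ a, a ∈ Y ↔ n.testBit a.val = true) ∧
    Nat.card Y = cnt fun a => n.testBit a.val := by
  classical
  obtain ⟨n, hn, e⟩ := subs_aux (fun a => decide (a ∈ Y)) (by simp) fun a ha b hb => by
    simpa using add_mem (of_decide_eq_true ha) (of_decide_eq_true hb)
  have e' : ∀ a, a ∈ Y ↔ n.testBit a.val = true := fun a => by rw [← e]; simp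
  refine ⟨n, hn, e', ?_⟩
  rw [Nat.card_eq_fintype_card, Fintype.card_subtype, cnt]
  simp only [e']

theorem hyper (Y : AddSubgroup K8) (h : Y ≠ ⊤) : ∃ κ : K8, κ ≠ 0 ∧ ∀ b ∈ Y, tr (κ * b) = 0 := by
  obtain ⟨n, hn, e, -⟩ := subs Y
  have key : ∀ n ∈ subL, (∀ a : K8, n.testBit a.val = true) ∨
      ∃ κ : K8, κ ≠ 0 ∧ ∀ b : K8, n.testBit b.val = true → tr (κ * b) = 0 := by decide +kernel
  simp only [e]
  exact (key n hn).resolve_left fun c => h (eq_top_iff.2 fun a _ => (e a).2 (c a))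

theorem card_split {A B : Type*} [AddGroup A] [AddGroup B] (P : AddSubgroup A) (φ : A →+ B) :
    Nat.card P = Nat.card ↥(P ⊓ φ.ker) * Nat.card (P.map φ) := by
  rw [← AddSubgroup.relIndex_ker, ← AddSubgroup.inf_relIndex_left, ← AddSubgroup.relIndex_bot_left,
    ← AddSubgroup.relIndex_bot_left, AddSubgroup.relIndex_mul_relIndex _ _ _ bot_le inf_le_left]

theorem small (c ν : K8) (P : AddSubgroup V) {κ : K8} (hκ : κ ≠ 0)
    (h : ∀ p ∈ P, tr (κ * Qf c ν p) = 0) : Nat.card P ≤ 16 := by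
  let φ1 : V →+ K8 := AddMonoidHom.fst _ _
  let φ2 : V →+ K8 := (AddMonoidHom.fst _ _).comp (AddMonoidHom.snd _ _)
  let φ3 : V →+ K8 := (AddMonoidHom.snd _ _).comp (AddMonoidHom.snd _ _)
  have e0 : P ⊓ φ3.ker ⊓ φ2.ker ⊓ φ1.ker = ⊥ := eq_bot_iff.2 fun p hp =>
    Prod.ext hp.2 (Prod.ext hp.1.2 hp.1.1.2)
  rw [card_split P φ3, card_split _ φ2, card_split _ φ1, e0, AddSubgroup.card_bot, one_mul, mul_right_comm]
  obtain ⟨n1, h1, e1, c1⟩ := subs ((P ⊓ φ3.ker ⊓ φ2.ker).map φ1)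
  obtain ⟨n2, h2, e2, c2⟩ := subs ((P ⊓ φ3.ker).map φ2)
  obtain ⟨n3, h3, e3, c3⟩ := subs (P.map φ3)
  have k1 : ∀ n ∈ subL, ∀ κ : K8, κ ≠ 0 → (∀ a : K8, n.testBit a.val = true → tr (κ * N a) = 0) →
      (cnt fun a => n.testBit a.val) ≤ 2 := by decide +kernel
  have k2 : ∀ n ∈ subL, ∀ m ∈ subL, (cnt fun a => n.testBit a.val) * (cnt fun a => m.testBit a.val) ≤ 8 ∨
      ∀ κ : K8, κ ≠ 0 → ∃ a : K8, n.testBit a.val = true ∧ ∃ b : K8, m.testBit b.val = true ∧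
        tr (κ * (a * b)) ≠ 0 := by decide +kernel
  rw [c1, c2, c3]
  refine (Nat.mul_le_mul ((k2 n1 h1 n3 h3).resolve_right fun d => ?_) 
    (k1 n2 h2 κ hκ fun a ha => ?_) : _ ≤ 8 * 2)
  · obtain ⟨a, ha, b, hb, d⟩ := d κ hκ
    obtain ⟨⟨v, x, y⟩, ⟨⟨hp, rfl⟩, rfl⟩, rfl⟩ := (e1 a).2 ha
    obtain ⟨q, hq, rfl⟩ := (e3 b).2 hb
    have := h _ (add_mem hp hq)
    rw [Qf_add, mul_add, mul_add, tr_add, tr_add, h _ hp, h _ hq, Bf_eq] at this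
    exact d (by simpa [φ1, φ3] using this)
  · obtain ⟨⟨v, x, y⟩, ⟨hp, rfl⟩, rfl⟩ := (e2 a).2 ha
    simpa [Qf, φ2] using h _ hp

theorem range_cases (Y : AddSubgroup K8) (h : 4 ≤ Nat.card Y) :
    Y = ⊤ ∨ ∃ i : ℕ, ∀ v, tr v = 0 ↔ ∃ y ∈ Y, N (k 2) ^ i * y = v := by
  obtain ⟨n, hn, e, c⟩ := subs Y
  have key : ∀ n ∈ subL, 4 ≤ (cnt fun a => n.testBit a.val) → (∀ a : K8, n.testBit a.val = true) ∨
      ∃ i : Fin 7, ∀ v, tr v = 0 ↔ ∃ y : K8, n.testBit y.val = true ∧ N (k 2) ^ i.val * y = v := by decide +kernel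
  simp only [e]
  exact (key n hn (c ▸ h)).imp (fun c => eq_top_iff.2 fun a _ => (e a).2 (c a)) fun ⟨i, hi⟩ => ⟨i, hi⟩

/-- the commutator map, expanded -/
def Bg (c v a l w s t : K8) : K8 := cm a s + (v * t + w * l) + c * (a * t * (a * t) + s * l * (s * l))

set_option synthInstance.maxSize 4096 in
theorem two_aux : ∀ c a l a' l' : K8, l ≠ 0 → l' ≠ 0 → l ≠ l' →
    (∀ s, tr (l⁻¹ * (cm a s + c * (s * l * (s * l)))) = 0 →
      cm a' s + l⁻¹ * (cm a s + c * (s * l * (s * l))) * l' + c * (s * l' * (s * l')) = 0) →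
    ∀ v, tr v = 0 → ∀ ν, Qf c ν (v, a, l) = 0 → ∀ v', tr v' = 0 → Qf c ν (v', a', l') = 0 →
    Bg c v a l v' a' l' = 0 → (c = 1 ∧ ν = 1) ∨ (∃ b, ∀ w, tr w = 0 → ∀ s t, Bg c v a l w s t ≠ b) ∨
      ∃ w, tr w = 0 ∧ ∃ s t, Bg c v a l w s t = 0 ∧ Bg c v' a' l' w s t ≠ 0 := by decide +kernel

theorem par_two {c ν : K8} {x y : V} (hx : tr x.1 = 0) (hy : tr y.1 = 0) (x0 : x.2.2 ≠ 0)
    (y0 : y.2.2 ≠ 0) (xy : x.2.2 ≠ y.2.2) (qx : Qf c ν x = 0) (qy : Qf c ν y = 0)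
    (b0 : Bf c ν x y = 0) (hk : ∀ p : V, tr p.1 = 0 → Bf c ν x p = 0 → Bf c ν y p = 0)
    (hs : ∀ b, ∃ p : V, tr p.1 = 0 ∧ Bf c ν x p = b) : c = 1 ∧ ν = 1 := by
  obtain ⟨v, a, l⟩ := x
  obtain ⟨v', a', l'⟩ := y
  simp only [Bf_eq] at b0 hk hs
  rcases two_aux c a l a' l' x0 y0 xy (fun s e => by
    simpa using hk (_, s, 0) e (by
      simp only [mul_zero, zero_add]
      rw [mul_right_comm, inv_mul_cancel₀ x0, one_mul, ← add_assoc, add_self_K8, zero_add, add_self_K8]))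
    v hx ν qx v' hy qy b0 with e | ⟨b, e⟩ | ⟨w, hw, s, t, e1, e2⟩
  · exact e
  · obtain ⟨p, hp, e'⟩ := hs b
    exact absurd e' (e _ hp _ _)
  · exact absurd (hk (w, s, t) hw e1) e2

theorem three_aux : ∀ c a a' l : K8, l ≠ 0 → l ≠ 1 →
    (∀ s, cm a' s + (cm a s + c * (s * s)) * l + c * (s * l * (s * l)) = 0) → c = 0 ∧ a = 0 ∧ a' = 0 := by
  decide +kernel

theorem par_three {c ν : K8} {x y : V} (x1 : x.2.2 = 1) (y0 : y.2.2 ≠ 0) (y1 : y.2.2 ≠ 1)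
    (qx : Qf c ν x = 0) (qy : Qf c ν y = 0) (b0 : Bf c ν x y = 0)
    (hk : ∀ p : V, Bf c ν x p = 0 → Bf c ν y p = 0) :
    c = 0 ∧ ν = 0 ∧ x = (0, 0, 1) ∧ y.1 = 0 ∧ y.2.1 = 0 := by
  obtain ⟨v, a, _⟩ := x
  obtain ⟨v', a', l⟩ := y
  obtain rfl := x1
  simp only [Bf_eq] at hk
  obtain ⟨rfl, rfl, rfl⟩ := three_aux c a a' l y0 y1 fun s => by
    simpa using hk (cm a s + c * (s * s), s, 0) (by
      simp only [mul_zero, zero_add, mul_one]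
      rw [← add_assoc, add_self_K8, zero_add, add_self_K8])
  have e := hk (v, 0, 1) (by simp [add_self_K8])
  have key : ∀ ν v v' l : K8, l ≠ 0 → l ≠ 1 → ν + v = 0 → ν + v' = 0 → v' + v * l = 0 →
      ν = 0 ∧ v = 0 ∧ v' = 0 := by decide +kernel
  obtain ⟨rfl, rfl, rfl⟩ := key ν v v' l y0 y1 (by simpa [Qf] using qx) (by simpa [Qf, show l ≠ 0 from y0] using qy)
    (by simpa using e)
  exact ⟨rfl, rfl, rfl, rfl, rfl⟩

theorem nondeg {p : V} (hp : tr p.1 = 0) (h0 : p ≠ 0) (b : K8) :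
    ∃ q : V, tr q.1 = 0 ∧ Bf 1 1 p q = b := by
  let Y : AddSubgroup K8 :=
    { carrier := {b | ∃ q : V, tr q.1 = 0 ∧ Bf 1 1 p q = b}
      zero_mem' := ⟨0, by decide +kernel, by simp [Bf_eq]⟩
      add_mem' := by
        rintro _ _ ⟨q, hq, rfl⟩ ⟨r, hr, rfl⟩
        exact ⟨q + r, by rw [Prod.fst_add, tr_add, hq, hr, add_zero], Bf_add ..⟩
      neg_mem' := fun {x} hx => by rwa [neg_K8] }
  suffices Y = ⊤ from this.ge (AddSubgroup.mem_top b)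
  by_contra c
  obtain ⟨κ, hκ, e⟩ := hyper Y c
  have key : ∀ v : K8, tr v = 0 → ∀ a l : K8, (v = 0 ∧ a = 0 ∧ l = 0) ∨ ∀ κ : K8, κ ≠ 0 →
      (∃ s, tr (κ * Bg 1 v a l 0 s 0) ≠ 0 ∨ tr (κ * Bg 1 v a l 0 0 s) ≠ 0) ∨
      ∃ w, tr w = 0 ∧ tr (κ * Bg 1 v a l w 0 0) ≠ 0 := by decide +kernel
  obtain ⟨v, a, l⟩ := p
  have z : tr 0 = 0 := by decide +kernel
  rcases key v hp a l with ⟨rfl, rfl, rfl⟩ | d
  · exact h0 rfl
  rcases d κ hκ with ⟨s, d | d⟩ | ⟨w, hw, d⟩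
  exacts [d (e _ ⟨(0, s, 0), z, Bf_eq ..⟩), d (e _ ⟨(0, 0, s), z, Bf_eq ..⟩), d (e _ ⟨(w, 0, 0), hw, Bf_eq ..⟩)]

end Cfsg.Agent.SZR
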