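import Cfsg.Agent.SZR.Alg1

/-! Finite computations in the field with 8 elements, II: the isometry group. -/

set_option autoImplicit false

namespace Cfsg.Agent.SZR

open Subgroup H13 H49 SZS

/-- the vector with code `n` -/
def a2dec (n : ℕ) : V := (k (2 * (n % 2 ^ 2)), k (n / 2 ^ 2 % 2 ^ 3), k (n / 2 ^ 5 % 2 ^ 3))

/-- the table of the squaring map -/
def a2Q (n : ℕ) : ℕ :=
  Nat.mod (Nat.shiftRight 0x14c14ca21305a217973057978cea87a871eae151eae158ce4c1de521a21a4c1053053de5d4362e2bc0f50f562ed432bc1b9c0f1b952be46e46c0f52b83b7c411f7c4a7283b11fa724340a69824340a6982f59f59db6b6d9246db492fff249000 (Nat.mul 3 n)) 8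

def a2B (x y : ℕ) : ℕ := Nat.xor (Nat.xor (a2Q (Nat.xor x y)) (a2Q x)) (a2Q y)

theorem a2k_xor : ∀ a < 8, ∀ b < 8, k (a ^^^ b) = k a + k b := by decide +kernel

theorem a2k_xor2 : ∀ a < 4, ∀ b < 4, k (2 * (a ^^^ b)) = k (2 * a) + k (2 * b) := by decide +kernel

theorem a2dec_xor (x y : ℕ) : a2dec (x ^^^ y) = a2dec x + a2dec y := by
  simp only [a2dec, Nat.xor_mod_two_pow, Nat.xor_div_two_pow, Prod.mk_add_mk]
  rw [a2k_xor2 _ (Nat.mod_lt _ (by decide)) _ (Nat.mod_lt _ (by decide)),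
    a2k_xor _ (Nat.mod_lt _ (by decide)) _ (Nat.mod_lt _ (by decide)),
    a2k_xor _ (Nat.mod_lt _ (by decide)) _ (Nat.mod_lt _ (by decide))]
  rfl

theorem a2dec_tr (n : ℕ) : tr (a2dec n).1 = 0 := by
  have : ∀ a < 4, tr (k (2 * a)) = 0 := by decide +kernel
  exact this _ (Nat.mod_lt _ (by decide))

theorem a2dec_sur {p : V} (hp : tr p.1 = 0) : ∃ n < 256, p = a2dec n := by
  have : ∀ a b c : K8, tr a = 0 → a.val / 2 + 4 * b.val + 32 * c.val < 256 ∧
      (a, b, c) = a2dec (a.val / 2 + 4 * b.val + 32 * c.val) := by decide +kernel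
  exact ⟨_, this p.1 p.2.1 p.2.2 hp⟩

theorem a2Q_eq : ∀ n < 256, (Qf 1 1 (a2dec n)).val = a2Q n := by decide +kernel

theorem a2val_add : ∀ a b : K8, (a + b).val = Nat.xor a.val b.val := by decide +kernel

theorem a2xor_lt {x y : ℕ} (hx : x < 256) (hy : y < 256) : x ^^^ y < 256 :=
  Nat.xor_lt_two_pow (n := 8) hx hy

theorem a2B_eq {x y : ℕ} (hx : x < 256) (hy : y < 256) :
    (Bf 1 1 (a2dec x) (a2dec y)).val = a2B x y := by
  rw [Bf, ← a2dec_xor, a2val_add, a2val_add, a2Q_eq _ hx, a2Q_eq _ hy, a2Q_eq _ (a2xor_lt hx hy)]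
  rfl

/-- backtrack search for the images of a list of vectors -/
def a2srch (γ E : ℕ → ℕ) : List ℕ → List (ℕ × ℕ) → Bool
  | [], as => as.all fun p => Nat.beq p.2 (E p.1)
  | x :: xs, as => (List.range 256).all fun y =>
      !(Nat.beq (a2Q y) (γ (a2Q x)) && as.all fun p => Nat.beq (a2B y p.2) (γ (a2B x p.1))) ||
        a2srch γ E xs ((x, y) :: as)

theorem a2srch_ok {γ E G : ℕ → ℕ} (h0 : ∀ x < 256, G x < 256)
    (h1 : ∀ x < 256, a2Q (G x) = γ (a2Q x))
    (h2 : ∀ x < 256, ∀ y < 256, a2B (G x) (G y) = γ (a2B x y)) :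
    ∀ (xs as : List ℕ), (∀ x ∈ xs, x < 256) → (∀ x ∈ as, x < 256) →
      a2srch γ E xs (as.map fun x => (x, G x)) = true → ∀ x, x ∈ xs ∨ x ∈ as → G x = E x
  | [], as, _, _, h, x, hx => by
    simp only [a2srch, List.all_eq_true, List.mem_map] at h
    exact Nat.eq_of_beq_eq_true (h (x, G x) ⟨x, by simpa using hx, rfl⟩)
  | a :: xs, as, k1, k2, h, x, hx => by
    have ha : a < 256 := k1 a (by simp)
    simp only [a2srch, List.all_eq_true, List.mem_range] at h
    have := h (G a) (h0 a ha)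
    rw [Bool.or_eq_true] at this
    rcases this with e | e
    · exfalso
      rw [Bool.not_eq_true', ← Bool.not_eq_true] at e
      apply e
      rw [Bool.and_eq_true, List.all_eq_true]
      refine ⟨by rw [h1 a ha]; exact Nat.beq_refl _, fun p hp => ?_⟩
      obtain ⟨b, hb, rfl⟩ := List.mem_map.1 hp
      show Nat.beq (a2B (G a) (G b)) (γ (a2B a b)) = true
      rw [h2 a ha b (k2 b hb)]; exact Nat.beq_refl _
    · refine a2srch_ok h0 h1 h2 xs (a :: as) (fun y hy => k1 y (by simp [hy])) ?_ e x ?_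
      · intro y hy
        rcases List.mem_cons.1 hy with rfl | hy
        exacts [ha, k2 y hy]
      · simp only [List.mem_cons] at hx ⊢
        tauto

/-- the sum of the members of a list picked by the bits of `m` -/
def a2comb : List ℕ → ℕ → ℕ
  | [], _ => 0
  | b :: bs, m => Nat.xor (cond (Nat.beq (Nat.mod m 2) 1) b 0) (a2comb bs (Nat.div m 2))

theorem a2dec_zero : a2dec 0 = 0 := by decide +kernel

theorem a2comb_ind {P : V → Prop} (ha : ∀ p q, P p → P q → P (p + q)) (h0 : P 0) :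
    ∀ (bs : List ℕ), (∀ b ∈ bs, P (a2dec b)) → ∀ m, P (a2dec (a2comb bs m))
  | [], _, _ => by rw [a2comb, a2dec_zero]; exact h0
  | b :: bs, h, m => by
    have e : a2comb (b :: bs) m =
      (cond (Nat.beq (Nat.mod m 2) 1) b 0) ^^^ (a2comb bs (Nat.div m 2)) := rfl
    rw [e, a2dec_xor]
    refine ha _ _ ?_ (a2comb_ind ha h0 bs (fun c hc => h c (by simp [hc])) _)
    cases Nat.beq (Nat.mod m 2) 1
    · rw [cond_false, a2dec_zero]; exact h0
    · exact h b (by simp)

theorem a2V_self (p : V) : p + p = 0 :=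
  Prod.ext (add_self_K8 _) (Prod.ext (add_self_K8 _) (add_self_K8 _))

theorem a2tr_add : ∀ a b : K8, tr a = 0 → tr b = 0 → tr (a + b) = 0 := by decide +kernel

theorem a2comb_map {g : V → V} {γ : K8 → K8} (h : Iso (fun v => tr v = 0) 1 1 g γ) (E : ℕ → ℕ) :
    ∀ (bs : List ℕ), (∀ b ∈ bs, g (a2dec b) = a2dec (E b)) →
      ∀ m, g (a2dec (a2comb bs m)) = a2dec (a2comb (bs.map E) m) := by
  have h0 : g (a2dec 0) = a2dec 0 := by
    have := h.add (a2dec 0) (a2dec 0) (a2dec_tr 0) (a2dec_tr 0)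
    rw [a2V_self, a2V_self] at this
    rw [a2dec_zero, this]
  intro bs
  induction bs with
  | nil => intro _ _; exact h0
  | cons b bs ih =>
    intro hb m
    have e : ∀ (c : ℕ) (cs : List ℕ), a2comb (c :: cs) m =
      (cond (Nat.beq (Nat.mod m 2) 1) c 0) ^^^ (a2comb cs (Nat.div m 2)) := fun _ _ => rfl
    rw [List.map_cons, e, e, a2dec_xor, a2dec_xor, h.add _ _ (a2dec_tr _) (a2dec_tr _),
      ih (fun c hc => hb c (by simp [hc]))]
    congr 1
    cases Nat.beq (Nat.mod m 2) 1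
    · exact h0
    · exact hb b (by simp)

def a2std : List ℕ := [1, 2, 4, 8, 16, 32, 64, 128]

theorem a2comb_std : ∀ n < 256, a2comb a2std n = n := by decide +kernel

theorem a2dec_inj : ∀ x < 256, ∀ y < 256, a2dec x = a2dec y → x = y := by
  have : ∀ n < 256, (a2dec n).1.val / 2 + 4 * (a2dec n).2.1.val + 32 * (a2dec n).2.2.val = n := by
    decide +kernel
  intro x hx y hy e
  rw [← this x hx, e, this y hy]

theorem a2det {g : V → V} {γ : K8 → K8} (h : Iso (fun v => tr v = 0) 1 1 g γ) {γn E : ℕ → ℕ}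
    (hγ : ∀ a : K8, (γ a).val = γn a.val)
    (hs : a2srch γn E [32, 64, 128, 4, 8, 16, 1, 2] [] = true) {n : ℕ} (hn : n < 256) :
    g (a2dec n) = a2dec (a2comb (a2std.map E) n) := by
  have ex : ∀ x : ℕ, ∃ y < 256, g (a2dec x) = a2dec y := fun x =>
    a2dec_sur (h.mem _ (a2dec_tr x))
  choose G G0 G1 using ex
  have key := a2srch_ok (γ := γn) (E := E) (G := G) (fun x _ => G0 x)
    (fun x hx => by rw [← a2Q_eq _ (G0 x), ← G1, h.sq _ (a2dec_tr x), hγ, a2Q_eq _ hx])
    (fun x hx y hy => by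
      rw [← a2B_eq (G0 x) (G0 y), ← G1, ← G1, h.bf a2tr_add (a2dec_tr x) (a2dec_tr y), hγ,
        a2B_eq hx hy])
    [32, 64, 128, 4, 8, 16, 1, 2] [] (by decide) (by simp) hs
  have := a2comb_map h E a2std (fun b hb => by
    rw [G1, key b (Or.inl (by revert b; decide))]) n
  rwa [a2comb_std n hn] at this

def a2E (l : List ℕ) (x : ℕ) : ℕ := l.getD (Nat.log2 x) 0

def a2l1 : List ℕ := [138, 89, 32, 201, 155, 4, 218, 145]
def a2l2 : List ℕ := [94, 41, 221, 54, 150, 106, 85, 114]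

theorem a2s0 : a2srch id id [32, 64, 128, 4, 8, 16, 1, 2] [] = true := by decide +kernel

theorem a2s1 : a2srch (fun x => cond (Nat.ble 4 x) (Nat.xor x 2) x) (a2E a2l1)
    [32, 64, 128, 4, 8, 16, 1, 2] [] = true := by decide +kernel

theorem a2s2 : a2srch (fun x => cond (Nat.ble 2 (Nat.mod x 4)) (Nat.xor x 1) x) (a2E a2l2)
    [32, 64, 128, 4, 8, 16, 1, 2] [] = true := by decide +kernel

theorem a2g1 {g : V → V} (h : Iso (fun v => tr v = 0) 1 1 g γ₁) {n : ℕ} (hn : n < 256) :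
    g (a2dec n) = a2dec (a2comb a2l1 n) := a2det h (by decide +kernel) a2s1 hn

theorem a2g2 {g : V → V} (h : Iso (fun v => tr v = 0) 1 1 g γ₂) {n : ℕ} (hn : n < 256) :
    g (a2dec n) = a2dec (a2comb a2l2 n) := a2det h (by decide +kernel) a2s2 hn

theorem iso_id {g : V → V} (h : Iso (fun v => tr v = 0) 1 1 g id) {p : V} (hp : tr p.1 = 0) :
    g p = p := by
  obtain ⟨n, hn, rfl⟩ := a2dec_sur hp
  rw [a2det h (γn := id) (E := id) (fun _ => rfl) a2s0 hn, List.map_id, a2comb_std n hn]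

theorem iso_fix {g₁ g₂ : V → V} (h1 : Iso (fun v => tr v = 0) 1 1 g₁ γ₁)
    (h2 : Iso (fun v => tr v = 0) 1 1 g₂ γ₂) {p : V} (hp : tr p.1 = 0) :
    (g₁ p = p ∧ g₂ p = p) ↔ (p = 0 ∨ p = (k 4, k 2, k 2)) := by
  obtain ⟨n, hn, rfl⟩ := a2dec_sur hp
  rw [a2g1 h1 hn, a2g2 h2 hn]
  revert n
  decide +kernel

theorem iso_gen {g₁ g₂ : V → V} (h1 : Iso (fun v => tr v = 0) 1 1 g₁ γ₁)
    (h2 : Iso (fun v => tr v = 0) 1 1 g₂ γ₂) {P : V → Prop} (ha : ∀ p q, P p → P q → P (p + q))
    (e1 : ∀ p : V, tr p.1 = 0 → P (g₁ p + p)) (e2 : ∀ p : V, tr p.1 = 0 → P (g₂ p + p))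
    (e3 : ∀ p : V, tr p.1 = 0 → P (eta p + p)) {p : V} (hp : tr p.1 = 0) : P p := by
  obtain ⟨n, hn, rfl⟩ := a2dec_sur hp
  have h0 : P 0 := by
    have := ha _ _ (e3 _ hp) (e3 _ hp)
    rwa [a2V_self] at this
  have f1 : ∀ x < 256, P (a2dec (a2comb a2l1 x ^^^ x)) := fun x hx => by
    rw [a2dec_xor, ← a2g1 h1 hx]; exact e1 _ (a2dec_tr x)
  have f2 : ∀ x < 256, P (a2dec (a2comb a2l2 x ^^^ x)) := fun x hx => by
    rw [a2dec_xor, ← a2g2 h2 hx]; exact e2 _ (a2dec_tr x)
  have f3 : P (a2dec 12) := by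
    have := e3 _ (a2dec_tr 4)
    rwa [show eta (a2dec 4) + a2dec 4 = a2dec 12 by decide +kernel] at this
  have s : ∀ n < 256, ∃ m < 256, a2comb [139, 95, 91, 43, 36, 217, 12, 193] m = n := by
    decide +kernel
  obtain ⟨m, -, rfl⟩ := s n hn
  refine a2comb_ind ha h0 _ (fun b hb => ?_) m
  simp only [List.mem_cons, List.not_mem_nil, or_false] at hb
  rcases hb with rfl | rfl | rfl | rfl | rfl | rfl | rfl | rfl
  exacts [f1 1 (by decide), f2 1 (by decide), f1 2 (by decide), f2 2 (by decide),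
    f1 4 (by decide), f2 4 (by decide), f3, f1 8 (by decide)]

/-- the additive map with given values at the basis -/
def a2lin (x y z b : K8) : K8 :=
  (if b.val % 2 = 1 then x else 0) + (if b.val / 2 % 2 = 1 then y else 0) +
    (if b.val / 4 = 1 then z else 0)

theorem a2lin_eq {γ : K8 → K8} (ha : ∀ a b, γ (a + b) = γ a + γ b) :
    γ = a2lin (γ 1) (γ (k 2)) (γ (k 4)) := by
  have h0 : γ 0 = 0 := by
    have := ha 0 0
    rwa [add_self_K8, add_self_K8] at this
  have e : ∀ b, b = a2lin 1 (k 2) (k 4) b := by decide +kernel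
  funext b
  conv_lhs => rw [e b]
  simp only [a2lin, ha]
  split_ifs <;> simp only [h0]

/-- the value of a word in two maps -/
def a2ev (a b : K8 → K8) : List Bool → K8 → K8
  | [] => id
  | c :: w => (cond c b a) ∘ a2ev a b w

theorem a2ev_ind {P : (K8 → K8) → Prop} (hm : ∀ f g, P f → P g → P (f ∘ g)) {a b : K8 → K8}
    (h0 : P id) (ha : P a) (hb : P b) : ∀ w, P (a2ev a b w)
  | [] => h0
  | c :: w => hm _ _ (by cases c; exacts [ha, hb]) (a2ev_ind hm h0 ha hb w)

def a2W : List (List Bool) := [[false, false, true],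
  [false, true, false],
  [true, false, false],
  [false, false, true, true],
  [false, true, true, false],
  [true, true, false, false],
  [false, false, true, true, true, true],
  [false, true, true, true, true, false],
  [true, true, true, true, false, false],
  [false, true, false, true, true, false, true],
  [true, false, true, true, false, true, false],
  [false, false, false, false, true, true, true, false],
  [false, false, false, true, true, true, false, false],
  [false, false, true, false, true, true, false, false],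
  [false, false, true, true, false, true, false, false],
  [false, false, true, true, true, false, false, false],
  [false, true, true, true, false, false, false, false],
  [true, false, false, false, false, true, true, true],
  [true, true, true, false, false, false, false, true],
  [false, false, false, false, true, false, false, false, true],
  [false, true, false, false, true, true, false, false, false]]

theorem words {P : (K8 → K8) → Prop} (hm : ∀ f g, P f → P g → P (f ∘ g)) {γ : K8 → K8}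
    (ha : ∀ a b, γ (a + b) = γ a + γ b) (h2 : ∀ a, γ (γ a) = a) (h1 : ∃ a, γ a ≠ a)
    (e1 : P fun b => N (k 2) * b) (e2 : P fun b => γ (N (k 2) * γ b)) : P γ₁ ∧ P γ₂ := by
  have key : ∀ x y z : K8, (∀ a, a2lin x y z (a2lin x y z a) = a) → (∃ a, a2lin x y z a ≠ a) →
      (∃ w ∈ a2W, ∀ b, γ₁ b = a2ev (fun b => k 7 * b)
        (fun b => a2lin x y z (k 7 * a2lin x y z b)) w b) ∧
      (∃ w ∈ a2W, ∀ b, γ₂ b = a2ev (fun b => k 7 * b)
        (fun b => a2lin x y z (k 7 * a2lin x y z b)) w b) := by decide +kernel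
  have n7 : N (k 2) = k 7 := by decide +kernel
  rw [n7] at e1 e2
  have h0 : P id := by
    have := hm _ _ e1 (hm _ _ e1 (hm _ _ e1 (hm _ _ e1 (hm _ _ e1 (hm _ _ e1 e1)))))
    convert this using 1
    funext b
    revert b
    decide +kernel
  rw [a2lin_eq ha] at h1 h2 e2
  obtain ⟨⟨w1, -, k1⟩, w2, -, k2⟩ := key _ _ _ h2 h1
  rw [funext k1, funext k2]
  exact ⟨a2ev_ind hm h0 e1 e2 w1, a2ev_ind hm h0 e1 e2 w2⟩

def a2F : List (List Bool) := [[], [false], [true], [false, true], [true, false],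
  [false, true, false], [true, false, true], [false, true, false, true]]

theorem a2id {P : (K8 → K8) → Prop} (hm : ∀ f g, P f → P g → P (f ∘ g)) (e1 : P γ₁) : P id := by
  convert hm _ _ e1 e1 using 1
  funext b
  revert b
  decide +kernel

theorem flag_ind {P : (K8 → K8) → Prop} (hm : ∀ f g, P f → P g → P (f ∘ g)) (e1 : P γ₁)
    (e2 : P γ₂) {γ : K8 → K8} (ha : ∀ a b, γ (a + b) = γ a + γ b) (hi : Function.Injective γ)
    (h1 : γ 1 = 1) (h2 : (γ (k 2)).val < 4) : P γ := by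
  have key : ∀ y z : K8, y.val < 4 → (∀ a, a2lin 1 y z a = a2lin 1 y z 0 → a = 0) →
      ∃ w ∈ a2F, ∀ b, a2lin 1 y z b = a2ev γ₁ γ₂ w b := by decide +kernel
  have e := a2lin_eq ha
  rw [h1] at e
  obtain ⟨w, -, hw⟩ := key _ (γ (k 4)) h2 (fun a h => hi (by rw [e]; exact h))
  rw [e, funext hw]
  exact a2ev_ind hm (a2id hm e1) e1 e2 w

theorem flag_all {P : (K8 → K8) → Prop} (hm : ∀ f g, P f → P g → P (f ∘ g)) (e1 : P γ₁)
    (e2 : P γ₂) (i : Fin 2) (j : Fin 4) :
    ∃ γ, P γ ∧ γ (k 2) = k (2 + i) ∧ γ (k 4) = k (4 + j) := by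
  have key : ∀ (i : Fin 2) (j : Fin 4), ∃ w ∈ a2F, a2ev γ₁ γ₂ w (k 2) = k (2 + i) ∧
      a2ev γ₁ γ₂ w (k 4) = k (4 + j) := by decide +kernel
  obtain ⟨w, -, hw⟩ := key i j
  exact ⟨_, a2ev_ind hm (a2id hm e1) e1 e2 w, hw⟩

end Cfsg.Agent.SZR
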