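import Cfsg.Agent.SZR.Defs
import Cfsg.Agent.SZS.Lev0a
import Cfsg.Agent.S2126
import Cfsg.Agent.H46.Standard

/-! Frames: the basic API. -/

set_option autoImplicit false

namespace Cfsg.Agent.SZR

open Subgroup H13 H49 SZS

namespace Fr

variable {G : Type*} [Group G] (f : Fr G)

theorem u_mul (a b x y : K8) : f.u a b * f.u x y = f.u (a + x) (b + y + θ a * x) := by
  simp only [u, ← Subgroup.coe_mul, Model.u_mul_u]
theorem u_inj {a b x y : K8} : f.u a b = f.u x y ↔ a = x ∧ b = y := by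
  simp only [u, Subtype.coe_inj, Model.u_inj]
@[simp] theorem u_zero : f.u 0 0 = 1 := by simp [u]
theorem u_eq_one {a b : K8} : f.u a b = 1 ↔ a = 0 ∧ b = 0 := by rw [← f.u_zero, u_inj]
theorem u_inv (a b : K8) : (f.u a b)⁻¹ = f.u a (b + N a) := by
  simp only [u, ← Subgroup.coe_inv, Model.u_inv, N]
theorem u_sq (a b : K8) : f.u a b * f.u a b = f.z (N a) := by
  rw [u_mul, z, N, add_self_K8, add_self_K8, zero_add]
theorem u_conj (a b x y : K8) : f.u a b * f.u x y * (f.u a b)⁻¹ = f.u x (y + cm a x) := by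
  simp only [u, ← Subgroup.coe_inv, ← Subgroup.coe_mul, Model.u_conj_u, cm, add_assoc]
theorem z_mul (a b : K8) : f.z a * f.z b = f.z (a + b) := by simp [z, u_mul]
theorem z_inj {a b : K8} : f.z a = f.z b ↔ a = b := by simp [z, u_inj]
@[simp] theorem z_zero : f.z 0 = 1 := f.u_zero
theorem z_eq_one {a : K8} : f.z a = 1 ↔ a = 0 := by rw [← f.z_zero, z_inj]
theorem z_sq (a : K8) : f.z a * f.z a = 1 := by rw [z_mul, z_eq_one, add_self_K8]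
@[simp] theorem z_inv (a : K8) : (f.z a)⁻¹ = f.z a := inv_eq_of_mul_eq_one_right (f.z_sq a)
theorem u_z (a b d : K8) : f.u a b * f.z d = f.u a (b + d) := by simp [z, u_mul]
theorem z_u (a b d : K8) : f.z d * f.u a b = f.u a (b + d) := by simp [z, u_mul, add_comm]
theorem z_u_comm (a b d : K8) : f.z d * f.u a b = f.u a b * f.z d := by rw [u_z, z_u]
theorem u_comm (a b x y : K8) : f.u a b * f.u x y = f.z (cm a x) * (f.u x y * f.u a b) := by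
  rw [← mul_assoc, z_u, ← f.u_conj a b x y, inv_mul_cancel_right]
theorem u_comm_iff {a b x y : K8} : f.u a b * f.u x y = f.u x y * f.u a b ↔ cm a x = 0 := by
  rw [u_comm, mul_eq_right, z_eq_one]
theorem u_mem_A (a b : K8) : f.u a b ∈ f.A := (f.M.u a b).2
theorem mem_Q {x : G} : x ∈ f.Q ↔ ∃ a b, x = f.u a b := by
  constructor
  · rintro ⟨_, ⟨a, b, rfl⟩, rfl⟩; exact ⟨a, b, rfl⟩
  · rintro ⟨a, b, rfl⟩; exact ⟨_, ⟨a, b, rfl⟩, rfl⟩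
theorem mem_Z {x : G} : x ∈ f.Z ↔ ∃ b, x = f.z b := by
  constructor
  · rintro ⟨_, ⟨b, rfl⟩, rfl⟩; exact ⟨b, rfl⟩
  · rintro ⟨b, rfl⟩; exact ⟨_, ⟨b, rfl⟩, rfl⟩
theorem u_mem_Q (a b : K8) : f.u a b ∈ f.Q := f.mem_Q.2 ⟨a, b, rfl⟩
theorem z_mem_Z (b : K8) : f.z b ∈ f.Z := f.mem_Z.2 ⟨b, rfl⟩
theorem u_mem_Z {a b : K8} : f.u a b ∈ f.Z ↔ a = 0 := by
  rw [mem_Z]
  exact ⟨fun ⟨_, h⟩ => (f.u_inj.1 h).1, by rintro rfl; exact ⟨b, rfl⟩⟩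
theorem Z_le_Q : f.Z ≤ f.Q := map_mono f.M.Z_le_U
theorem Q_le_A : f.Q ≤ f.A := map_subtype_le _
theorem R_le : f.R ≤ 𝒞(f.A) := f.syl.le
theorem R_le_S : f.R ≤ f.S := le_sup_left
theorem Q_le_S : f.Q ≤ f.S := le_sup_right
theorem R_le_U : f.R ≤ f.U := le_sup_left
theorem Z_le_U : f.Z ≤ f.U := le_sup_right
theorem U_le_S : f.U ≤ f.S := sup_le_sup_left f.Z_le_Q _
theorem r_u {r : G} (hr : r ∈ f.R) (a b : K8) : r * f.u a b = f.u a b * r := (f.R_le hr _ (f.u_mem_A a b)).symm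
theorem r_z {r : G} (hr : r ∈ f.R) (b : K8) : r * f.z b = f.z b * r := f.r_u hr 0 b
theorem h0_mem : f.h0 ∈ f.A := (f.M.h _).2
theorem h0_u (a b : K8) : f.h0 * f.u a b * f.h0⁻¹ = f.u (k 2 * a) (N (k 2) * b) := by
  simp only [u, h0, ← Subgroup.coe_inv, ← Subgroup.coe_mul, Model.h_u_conj, Units.val_mk0]
  rw [show θ (k 4) = k 2 by decide +kernel, show k 4 ^ 2 * k 2 = N (k 2) by decide +kernel]
theorem h0_z (b : K8) : f.h0 * f.z b * f.h0⁻¹ = f.z (N (k 2) * b) := by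
  rw [z, h0_u, mul_zero, z]
theorem h0_r {r : G} (hr : r ∈ f.R) : f.h0 * r = r * f.h0 := f.R_le hr _ f.h0_mem
theorem h0_pow : f.h0 ^ 7 = 1 := by
  rw [h0, ← Subgroup.coe_pow, ← Model.h_pow, OneMemClass.coe_eq_one, Model.h_eq_one]
  exact Units.ext (by rw [Units.val_pow_eq_pow_val, Units.val_mk0, Units.val_one]; decide +kernel)
theorem h0_nS : f.h0 ∈ 𝒩(f.S) := by
  have k : ∀ n : ℕ, ∀ x ∈ f.S, f.h0 ^ n * x * (f.h0 ^ n)⁻¹ ∈ f.S := fun n => by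
    induction n with
    | zero => simp
    | succ n ih =>
      intro x hx
      obtain ⟨r, hr, y, hy, e⟩ := (mem_sup_of_norm_right (H := f.R) (K := f.Q)
        (norm_of_cent (f.R_le.trans (cent_anti f.Q_le_A)))).1 (ih x hx)
      obtain ⟨a, b, rfl⟩ := f.mem_Q.1 hy
      rw [pow_succ', show f.h0 * f.h0 ^ n * x * (f.h0 * f.h0 ^ n)⁻¹ =
        f.h0 * (f.h0 ^ n * x * (f.h0 ^ n)⁻¹) * f.h0⁻¹ by group, e, ← mul_assoc, f.h0_r hr, mul_assoc,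
        mul_assoc, ← mul_assoc f.h0, h0_u]
      exact mul_mem (f.R_le_S hr) (f.Q_le_S (f.u_mem_Q _ _))
  refine mem_normalizer_iff.2 fun x => ⟨fun h => by simpa using k 1 x h, fun h => ?_⟩
  have := k 6 _ h
  rwa [show f.h0 ^ 6 * (f.h0 * x * f.h0⁻¹) * (f.h0 ^ 6)⁻¹ = f.h0 ^ 7 * x * (f.h0 ^ 7)⁻¹ by group,
    h0_pow, one_mul, inv_one, mul_one] at this
theorem cent_A {x : G} (h1 : x ∈ f.A) (h2 : x ∈ 𝒞(f.A)) : x = 1 := by
  have h3 : (⟨x, h1⟩ : f.A) ∈ f.M.U := f.M.mem_U_of_commute (f.M.u_mem_U 1 0) f.M.u_one_zero_ne_one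
    (Subtype.ext (h2 _ (f.u_mem_A 1 0)).symm)
  by_contra h
  exact f.M.w_not_mem_B (f.M.U_le_B (f.M.mem_U_of_commute h3 (fun e => h (congrArg Subtype.val e))
    (Subtype.ext (h2 _ f.M.w.2))))
theorem mem_Q_of_comm {x : G} {b : K8} (h1 : x ∈ f.A) (hb : b ≠ 0) (h : x * f.z b = f.z b * x) :
    x ∈ f.Q :=
  ⟨⟨x, h1⟩, f.M.mem_U_of_commute (f.M.u_mem_U 0 b) (fun e => hb (f.M.u_eq_one.1 e).2) (Subtype.ext h),
    rfl⟩
theorem mem_S {x : G} : x ∈ f.S ↔ ∃ r ∈ f.R, ∃ a b, x = r * f.u a b := by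
  rw [S, mem_sup_of_norm_right (norm_of_cent (f.R_le.trans (cent_anti f.Q_le_A)))]
  simp only [mem_Q]
  exact ⟨fun ⟨r, hr, _, ⟨a, b, e⟩, h⟩ => ⟨r, hr, a, b, e ▸ h⟩,
    fun ⟨r, hr, a, b, h⟩ => ⟨r, hr, _, ⟨a, b, rfl⟩, h⟩⟩
theorem mem_U {x : G} : x ∈ f.U ↔ ∃ r ∈ f.R, ∃ b, x = r * f.z b := by
  rw [U, mem_sup_of_norm_right (norm_of_cent (f.R_le.trans (cent_anti (f.Z_le_Q.trans f.Q_le_A))))]
  simp only [mem_Z]
  exact ⟨fun ⟨r, hr, _, ⟨b, e⟩, h⟩ => ⟨r, hr, b, e ▸ h⟩, fun ⟨r, hr, b, h⟩ => ⟨r, hr, _, ⟨b, rfl⟩, h⟩⟩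
theorem ru_inj {r s : G} (hr : r ∈ f.R) (hs : s ∈ f.R) {a b x y : K8}
    (h : r * f.u a b = s * f.u x y) : r = s ∧ a = x ∧ b = y := by
  have e : s⁻¹ * r = f.u x y * (f.u a b)⁻¹ := by
    rw [inv_mul_eq_iff_eq_mul, ← mul_assoc, ← h, mul_inv_cancel_right]
  have e1 := f.cent_A (e ▸ mul_mem (f.u_mem_A x y) (inv_mem (f.u_mem_A a b)))
    (f.R_le (mul_mem (inv_mem hs) hr))
  obtain rfl : s = r := inv_mul_eq_one.1 e1
  exact ⟨rfl, f.u_inj.1 (mul_left_cancel h)⟩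
theorem ru_mul {r s : G} (hs : s ∈ f.R) (a b x y : K8) :
    r * f.u a b * (s * f.u x y) = r * s * f.u (a + x) (b + y + θ a * x) := by
  rw [← u_mul, mul_assoc, ← mul_assoc (f.u a b), ← f.r_u hs]; simp only [mul_assoc]
theorem dc_eq {r : G} (hr : r ∈ f.R) (a b : K8) : f.dc (r * f.u a b) = (r, a, b) := by
  have h : ∃ t : G × K8 × K8, t.1 ∈ f.R ∧ r * f.u a b = t.1 * f.u t.2.1 t.2.2 := ⟨(r, a, b), hr, rfl⟩
  rw [dc, dif_pos h]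
  obtain ⟨h1, h2, h3⟩ := f.ru_inj hr h.choose_spec.1 h.choose_spec.2
  exact Prod.ext h1.symm (Prod.ext h2.symm h3.symm)
theorem pr_eq {r : G} (hr : r ∈ f.R) (a b : K8) : f.pr (r * f.u a b) = r := congrArg Prod.fst (f.dc_eq hr a b)
theorem pa_eq {r : G} (hr : r ∈ f.R) (a b : K8) : f.pa (r * f.u a b) = a := congrArg (·.2.1) (f.dc_eq hr a b)
theorem pb_eq {r : G} (hr : r ∈ f.R) (a b : K8) : f.pb (r * f.u a b) = b := congrArg (·.2.2) (f.dc_eq hr a b)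
theorem pa_u (a b : K8) : f.pa (f.u a b) = a := by simpa using f.pa_eq (one_mem _) a b
theorem pa_r {r : G} (hr : r ∈ f.R) : f.pa r = 0 := by simpa using f.pa_eq hr 0 0
theorem pr_mem (x : G) : f.pr x ∈ f.R := by
  unfold pr dc
  split_ifs with h
  · exact h.choose_spec.1
  · exact one_mem _
theorem S_eq {x : G} (hx : x ∈ f.S) : x = f.pr x * f.u (f.pa x) (f.pb x) := by
  obtain ⟨r, hr, a, b, rfl⟩ := f.mem_S.1 hx
  rw [f.pr_eq hr, f.pa_eq hr, f.pb_eq hr]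
theorem pa_mul {x y : G} (hx : x ∈ f.S) (hy : y ∈ f.S) : f.pa (x * y) = f.pa x + f.pa y := by
  obtain ⟨r, hr, a, b, rfl⟩ := f.mem_S.1 hx
  obtain ⟨s, hs, c, d, rfl⟩ := f.mem_S.1 hy
  rw [f.ru_mul hs, f.pa_eq hr, f.pa_eq hs, f.pa_eq (mul_mem hr hs)]
theorem pa_inv {x : G} (hx : x ∈ f.S) : f.pa x⁻¹ = f.pa x := by
  have := f.pa_mul hx (inv_mem hx)
  rw [mul_inv_cancel, f.pa_r (one_mem _)] at this
  rw [← zero_add (f.pa x⁻¹), ← add_self_K8 (f.pa x), add_assoc, ← this, add_zero]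
theorem pr_mul {x y : G} (hx : x ∈ f.S) (hy : y ∈ f.S) : f.pr (x * y) = f.pr x * f.pr y := by
  obtain ⟨r, hr, a, b, rfl⟩ := f.mem_S.1 hx
  obtain ⟨s, hs, c, d, rfl⟩ := f.mem_S.1 hy
  rw [f.ru_mul hs, f.pr_eq hr, f.pr_eq hs, f.pr_eq (mul_mem hr hs)]
theorem S_sq {x : G} (hx : x ∈ f.S) : x * x = f.pr x * f.pr x * f.z (N (f.pa x)) := by
  obtain ⟨r, hr, a, b, rfl⟩ := f.mem_S.1 hx
  rw [f.pr_eq hr, f.pa_eq hr, f.ru_mul hr, ← u_mul, u_sq]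
theorem pa_comm {x y : G} (hx : x ∈ f.S) (hy : y ∈ f.S) (h : x * y = y * x) :
    cm (f.pa x) (f.pa y) = 0 := by
  obtain ⟨r, hr, a, b, rfl⟩ := f.mem_S.1 hx
  obtain ⟨s, hs, c, d, rfl⟩ := f.mem_S.1 hy
  rw [f.ru_mul hs, f.ru_mul hr] at h
  obtain ⟨-, h1, h2⟩ := f.ru_inj (mul_mem hr hs) (mul_mem hs hr) h
  rw [f.pa_eq hr, f.pa_eq hs, ← f.u_comm_iff (b := b) (y := d), u_mul, u_mul, h1, h2]
theorem mem_U_iff {x : G} (hx : x ∈ f.S) : x ∈ f.U ↔ f.pa x = 0 := by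
  rw [mem_U]
  refine ⟨fun ⟨r, hr, b, e⟩ => e ▸ f.pa_eq hr 0 b, fun h => ⟨_, f.pr_mem x, f.pb x, ?_⟩⟩
  rw [z, ← h]; exact f.S_eq hx
theorem pa_of_sq {x : G} (hx : x ∈ f.S) (h : x * x ∈ 𝒞(f.A)) : f.pa x = 0 := by
  rw [f.S_sq hx] at h
  exact N_eq_zero.1 (f.z_eq_one.1 (f.cent_A (f.u_mem_A _ _)
    ((mul_mem_cancel_left (f.R_le (mul_mem (f.pr_mem x) (f.pr_mem x)))).1 h)))
theorem S_z {x : G} (hx : x ∈ f.S) (b : K8) : x * f.z b = f.z b * x := by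
  obtain ⟨r, hr, a, c, rfl⟩ := f.mem_S.1 hx
  rw [mul_assoc, ← z_u_comm, ← mul_assoc, f.r_z hr, mul_assoc]
theorem S_inf_C : f.S ⊓ 𝒞(f.A) = f.R := by
  refine le_antisymm (fun x hx => ?_) (le_inf f.R_le_S f.R_le)
  obtain ⟨r, hr, a, b, rfl⟩ := f.mem_S.1 hx.1
  rw [f.cent_A (f.u_mem_A a b) ((mul_mem_cancel_left (f.R_le hr)).1 hx.2), mul_one]
  exact hr
theorem S_inf_A : f.S ⊓ f.A = f.Q := by
  refine le_antisymm (fun x hx => ?_) (le_inf f.Q_le_S f.Q_le_A)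
  obtain ⟨r, hr, a, b, rfl⟩ := f.mem_S.1 hx.1
  rw [f.cent_A ((mul_mem_cancel_right (f.u_mem_A a b)).1 hx.2) (f.R_le hr), one_mul]
  exact f.u_mem_Q a b
theorem S_le_N : f.S ≤ 𝒩(f.A) := sup_le (norm_of_cent f.R_le) (norm_of_le f.Q_le_A)
theorem S_nR : f.S ≤ 𝒩(f.R) :=
  sup_le (norm_of_le le_rfl) (norm_of_cent (cent_symm (f.R_le.trans (cent_anti f.Q_le_A))))
theorem S_nQ : f.S ≤ 𝒩(f.Q) :=
  sup_le (norm_of_cent (f.R_le.trans (cent_anti f.Q_le_A))) (norm_of_le le_rfl)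
theorem cN {r : G} (hr : r ∈ 𝒞(f.A)) (h2 : r * r = 1) (h1 : r ≠ 1) : 𝒞[r] ≤ 𝒩(f.A) := fun c hc =>
  f.ti c r hr (mem_cj'.2 ⟨r, hr, by rw [mem_cent1.1 hc, mul_inv_cancel_right]⟩) h2 h1
theorem card_Q : Nat.card f.Q = 64 := by rw [Q, card_subtype, f.M.card_U, card_K8]; rfl
theorem card_Z : Nat.card f.Z = 8 := by rw [Z, card_subtype, f.M.card_Z, card_K8]
theorem card_S : Nat.card f.S = 64 * Nat.card f.R := by
  rw [S, card_sup_of_disjoint (Or.inl (norm_of_cent (f.R_le.trans (cent_anti f.Q_le_A))))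
    (eq_bot_iff.2 fun x hx => f.cent_A (f.Q_le_A hx.2) (f.R_le hx.1)), card_Q, mul_comm]
theorem card_A : Nat.card f.A = 29120 := by rw [f.M.card_G, card_K8]; rfl
theorem simple_A : IsSimpleGroup f.A := f.M.isSimpleGroup ⟨k 2, by decide +kernel⟩
theorem not_solv : ¬ Group.IsSolvable f.A := fun h => by
  have := f.simple_A
  have h1 := (IsSimpleGroup.comm_iff_isSolvable (G := f.A)).2 h (f.M.u 1 0) (f.M.u (k 2) 0)
  exact absurd (f.u_comm_iff.1 (congrArg Subtype.val h1)) (by decide +kernel)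
theorem piQ : IsPi {2} f.Q := isPi_of_card_eq_pow (k := 6) Nat.prime_two f.card_Q
theorem piS : IsPi {2} f.S := f.syl.pi.sup f.piQ (Or.inl (norm_of_cent (f.R_le.trans (cent_anti f.Q_le_A))))
theorem sylQ : IsSylowOf 2 f.Q f.A := by
  refine hall_mk f.Q_le_A f.piQ ((isPiNat_compl_singleton Nat.prime_two).2 ?_)
  have := card_mul_relIndex f.Q_le_A
  rw [card_Q, card_A] at this
  omega

@[simp] theorem conj_A (g : G) : (f.conj g).A = cj g f.A := rfl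
@[simp] theorem conj_R (g : G) : (f.conj g).R = cj g f.R := rfl
theorem conj_u (g : G) (a b : K8) : (f.conj g).u a b = g * f.u a b * g⁻¹ := by
  have : (f.conj g).M.u a b = cjEquiv g f.A (f.M.u a b) := (f.conj g).M.inj (by
    rw [Model.ρ_u]
    change _ = f.M.ρ ((cjEquiv g f.A).symm (cjEquiv g f.A _))
    rw [MulEquiv.symm_apply_apply, Model.ρ_u])
  exact congrArg Subtype.val this
theorem conj_z (g : G) (b : K8) : (f.conj g).z b = g * f.z b * g⁻¹ := f.conj_u g 0 b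
@[simp] theorem conj_Q (g : G) : (f.conj g).Q = cj g f.Q := by
  ext x
  simp only [mem_Q, mem_cj', conj_u]
  exact ⟨fun ⟨a, b, e⟩ => ⟨_, ⟨a, b, rfl⟩, e⟩, fun ⟨_, ⟨a, b, e⟩, h⟩ => ⟨a, b, e ▸ h⟩⟩
@[simp] theorem conj_Z (g : G) : (f.conj g).Z = cj g f.Z := by
  ext x
  simp only [mem_Z, mem_cj', conj_z]
  exact ⟨fun ⟨b, e⟩ => ⟨_, ⟨b, rfl⟩, e⟩, fun ⟨_, ⟨b, e⟩, h⟩ => ⟨b, e ▸ h⟩⟩
@[simp] theorem conj_S (g : G) : (f.conj g).S = cj g f.S := by rw [S, conj_Q, conj_R, S, cj_sup]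
@[simp] theorem conj_U (g : G) : (f.conj g).U = cj g f.U := by rw [U, conj_Z, conj_R, U, cj_sup]
theorem conj_C (g : G) : 𝒞((f.conj g).A) = cj g 𝒞(f.A) := (cj_centralizer g f.A).symm
theorem cj_conj (g : G) : Cj f (f.conj g) := ⟨g, rfl⟩
theorem Cj.refl : Cj f f := ⟨1, (cj_one _).symm⟩
theorem Cj.symm {f f' : Fr G} (h : Cj f f') : Cj f' f := let ⟨g, e⟩ := h; ⟨g⁻¹, by rw [e, cj_inv_cj]⟩
theorem Cj.trans {f f' f'' : Fr G} (h : Cj f f') (h' : Cj f' f'') : Cj f f'' :=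
  let ⟨g, e⟩ := h; let ⟨g', e'⟩ := h'; ⟨g' * g, by rw [e', e, cj_cj]⟩
theorem Cj.of_eq {f f' f'' : Fr G} (h : Cj f f') (e : f''.A = f'.A) : Cj f f'' := let ⟨g, e'⟩ := h; ⟨g, e.trans e'⟩
theorem Cj.card_R {f f' : Fr G} (h : Cj f f') : Nat.card f'.R = Nat.card f.R := by
  obtain ⟨g, e⟩ := h
  have := f'.syl
  rw [e, ← cj_centralizer] at this
  rw [this.card_eq (f.syl.cj g), card_cj]
theorem Cj.card_S {f f' : Fr G} (h : Cj f f') : Nat.card f'.S = Nat.card f.S := by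
  rw [f'.card_S, f.card_S, h.card_R]
theorem Cj.ti {f f' : Fr G} (h : Cj f f') (ne : f'.A ≠ f.A) {x : G} (h1 : x ∈ 𝒞(f.A))
    (h2 : x ∈ 𝒞(f'.A)) {n : ℕ} (hn : x ^ 2 ^ n = 1) : x = 1 := by
  obtain ⟨g, e⟩ := h
  induction n generalizing x with
  | zero => simpa using hn
  | succ n ih =>
    have h3 := ih (mul_mem h1 h1) (mul_mem h2 h2) (by rw [← sq, ← pow_mul, ← pow_succ', hn])
    by_contra h4
    rw [e, ← cj_centralizer] at h2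
    exact ne (e.trans (cj_eq_of_mem_norm (f.ti g x h1 h2 h3 h4)))
theorem Cj.inv {f f' : Fr G} (h : Cj f f') {x : G} : f'.Inv x ↔ f.Inv x := by
  obtain ⟨g, e⟩ := h
  simp only [Inv, e, ← cj_centralizer, cj_cj]
  exact and_congr_right fun _ => and_congr_right fun _ =>
    ⟨fun ⟨_, h⟩ => ⟨_, h⟩, fun ⟨a, h⟩ => ⟨a * g⁻¹, by rwa [inv_mul_cancel_right]⟩⟩
theorem inv_iff {x : G} : f.Inv x ↔ x * x = 1 ∧ x ≠ 1 ∧ ∃ f', Cj f f' ∧ x ∈ 𝒞(f'.A) :=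
  and_congr_right fun _ => and_congr_right fun _ =>
    ⟨fun ⟨g, h⟩ => ⟨f.conj g, f.cj_conj g, (f.conj_C g).symm ▸ h⟩,
      fun ⟨_, ⟨g, e⟩, h⟩ => ⟨g, by rwa [e, ← cj_centralizer] at h⟩⟩
theorem Inv.conj {f : Fr G} {x : G} (h : f.Inv x) (g : G) : f.Inv (g * x * g⁻¹) := by
  obtain ⟨h1, h2, a, h3⟩ := h
  refine ⟨by rw [show g * x * g⁻¹ * (g * x * g⁻¹) = g * (x * x) * g⁻¹ by group, h1]; simp,
    by simpa using h2, g * a, ?_⟩
  rwa [cj_mul, conj_mem_cj]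

variable [Finite G]

theorem sylS : IsSylowOf 2 f.S 𝒩(f.A) := by
  have p2 := Nat.prime_two
  obtain ⟨S, hS, hle⟩ := exists_sylowOf_ge f.piS f.S_le_N
  have SA : f.Q = S ⊓ f.A :=
    f.sylQ.eq_of_le (le_inf (f.Q_le_S.trans hle) f.Q_le_A) inf_le_right (hS.pi.inf_left _)
  have SC : f.R = S ⊓ 𝒞(f.A) :=
    f.syl.eq_of_le (le_inf (f.R_le_S.trans hle) f.R_le) inf_le_right (hS.pi.inf_left _)
  suffices S ≤ f.S from le_antisymm hle this ▸ hS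
  intro s hs
  obtain ⟨n, hn⟩ := hS.pi.isPGroup p2 ⟨s, hs⟩
  have hn' : (⟨s, hS.le hs⟩ : 𝒩(f.A)) ^ 2 ^ n = 1 := Subtype.ext (congrArg (Subtype.val : S → G) hn)
  have hα : f.A.normalizerMonoidHom ⟨s, hS.le hs⟩ ^ 2 ^ n = 1 := by rw [← map_pow, hn', map_one]
  have : Group.IsPerfect f.A := ⟨f.M.commutator_eq_top ⟨k 2, by decide +kernel⟩⟩
  let e := f.M.equivOf (lieModel (e := 2 ^ (1 + 1)) θ_K8)
  have hk : e.toMonoidHom.ker = center f.A := by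
    rw [(MonoidHom.ker_eq_bot_iff _).2 e.injective, eq_comm, eq_bot_iff]
    exact fun x hx => Subtype.ext (f.cent_A x.2 fun y hy =>
      congrArg Subtype.val (mem_center_iff.1 hx ⟨y, hy⟩))
  obtain ⟨a, ha⟩ := L0.inner_of_odd (π := e.toMonoidHom) e.surjective hk
    (by rw [S2126.result (m := 1) le_rfl rfl]; decide) _ hα
  have ha' : ∀ x ∈ f.A, s * x * s⁻¹ = a * x * (a : G)⁻¹ := fun x hx => congrArg Subtype.val (ha ⟨x, hx⟩)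
  have aQ : (a : G) ∈ f.Q := by
    have a2 : (a : G) ^ 2 ^ n = 1 := by
      rw [show f.A.normalizerMonoidHom ⟨s, hS.le hs⟩ = MulAut.conj a from MulEquiv.ext ha,
        ← map_pow] at hα
      exact f.cent_A (pow_mem a.2 _) fun x hx => (mul_inv_eq_iff_eq_mul.1
        (congrArg Subtype.val (MulEquiv.congr_fun hα ⟨x, hx⟩))).symm
    refine zpowers_le.1 (f.sylQ.le_of_norm (zpowers_le.2 a.2) (isPi_zpowers.2 ?_)
      (Or.inl (zpowers_le.2 (mem_norm_of_cj_le fun y hy => ?_))))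
    · exact (isPiNat_singleton_pow p2 n).of_dvd (orderOf_dvd_of_pow_eq_one a2)
    · obtain ⟨y, hy', rfl⟩ := mem_cj'.1 hy
      rw [SA]
      exact mem_inf.2 ⟨ha' y (f.Q_le_A hy') ▸
        mul_mem (mul_mem hs (hle (f.Q_le_S hy'))) (inv_mem hs),
        mul_mem (mul_mem a.2 (f.Q_le_A hy')) (inv_mem a.2)⟩
  have : (a : G)⁻¹ * s ∈ f.R := SC ▸ mem_inf.2 ⟨mul_mem (inv_mem (hle (f.Q_le_S aQ))) hs, fun x hx => by
    calc x * ((a : G)⁻¹ * s) = (a : G)⁻¹ * (a * x * (a : G)⁻¹) * s := by group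
      _ = _ := by rw [← ha' x hx]; group⟩
  simpa using mul_mem (f.Q_le_S aQ) (f.R_le_S this)
theorem exists_le_S {P : Subgroup G} (h1 : P ≤ 𝒩(f.A)) (h2 : IsPi {2} P) :
    ∃ f' : Fr G, f'.A = f.A ∧ P ≤ f'.S := by
  obtain ⟨n, hn, h⟩ := sylowOf_Jsub f.sylS h1 h2
  exact ⟨f.conj n, cj_eq_of_mem_norm hn, f.conj_S n ▸ h⟩
theorem exists_cen : ∃ r ∈ f.R, r * r = 1 ∧ r ≠ 1 ∧ ∀ s ∈ f.R, r * s = s * r := by
  have : Fact (Nat.Prime 2) := ⟨Nat.prime_two⟩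
  have h := f.syl.pi.isPGroup Nat.prime_two
  obtain ⟨r, h1, h2, h3⟩ := H46.exists_involution_centralized h f.ne h (norm_of_le le_rfl)
  exact ⟨r, h1, by rw [← sq, ← h2, pow_orderOf_eq_one], by rintro rfl; simp at h2,
    fun s hs => (h3 s hs).symm⟩
theorem S_pow {x : G} (hx : x ∈ f.S) : ∃ n : ℕ, x ^ 2 ^ n = 1 :=
  let ⟨n, hn⟩ := f.piS.isPGroup Nat.prime_two ⟨x, hx⟩; ⟨n, congrArg Subtype.val hn⟩

end Fr

end Cfsg.Agent.SZR
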