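import Cfsg.Agent.SZR.Link
import Cfsg.Agent.SZR.Alg1
import Cfsg.Agent.SZS.Basic1

/-! The normalizer of S acts on the eight blocks. -/

set_option autoImplicit false

namespace Cfsg.Agent.SZR

open Subgroup H13 H49 SZS

namespace Fr

variable {G : Type*} [Group G] [Finite G] {f : Fr G} {g : G} {φ : G → K8}

omit [Finite G] in
theorem b_cjsq (m x : G) : m * x * m⁻¹ * (m * x * m⁻¹) = m * (x * x) * m⁻¹ := by group

omit [Finite G] in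
theorem b_comm (el : ∀ r ∈ f.R, r * r = 1) {r s : G} (hr : r ∈ f.R) (hs : s ∈ f.R) : r * s = s * r := by
  rw [eq_inv_of_mul_eq_one_left (el _ (mul_mem hr hs)), mul_inv_rev,
    inv_eq_of_mul_eq_one_right (el r hr), inv_eq_of_mul_eq_one_right (el s hs)]

theorem b_sq (el : ∀ r ∈ f.R, r * r = 1) {x : G} (hx : x ∈ f.S) : x * x = f.z (N (f.pa x)) := by
  rw [f.S_sq hx, el _ (f.pr_mem x), one_mul]

theorem b_rz {r s : G} (hr : r ∈ f.R) (hs : s ∈ f.R) {a b : K8} (h : r * f.z a = s * f.z b) :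
    r = s ∧ a = b := (f.ru_inj hr hs h).imp_right And.right

theorem b_r0 (f : Fr G) : ∃ r ∈ f.R, r ≠ 1 := ne_bot_iff_exists.1 f.ne

theorem mem_U_sq (el : ∀ r ∈ f.R, r * r = 1) {x : G} (hx : x ∈ f.S) : x ∈ f.U ↔ x * x = 1 := by
  rw [f.mem_U_iff hx, b_sq el hx, f.z_eq_one, N_eq_zero]

theorem nS_U (el : ∀ r ∈ f.R, r * r = 1) : 𝒩(f.S) ≤ 𝒩(f.U) := fun m hm =>
  norm_of_conj fun x hx => (mem_U_sq el (cm_norm hm (f.U_le_S hx))).2 (by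
    rw [b_cjsq, (mem_U_sq el (f.U_le_S hx)).1 hx]; group)

theorem nS_Z (el : ∀ r ∈ f.R, r * r = 1) : 𝒩(f.S) ≤ 𝒩(f.Z) := fun m hm =>
  norm_of_conj fun x hx => by
    obtain ⟨b, rfl⟩ := f.mem_Z.1 hx
    obtain ⟨a, rfl⟩ := N_surj b
    rw [← f.u_sq a 0, ← b_cjsq, b_sq el (cm_norm hm (f.Q_le_S (f.u_mem_Q a 0)))]
    exact f.z_mem_Z _

theorem b_SU (el : ∀ r ∈ f.R, r * r = 1) : f.S ≤ 𝒞(f.U) := fun s hs => mem_cent.2 fun x hx => by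
  obtain ⟨r, hr, b, rfl⟩ := f.mem_U.1 hx
  rw [mul_assoc, ← f.S_z hs, ← mul_assoc, ← mul_assoc]
  obtain ⟨r', hr', a, c, rfl⟩ := f.mem_S.1 hs
  rw [← mul_assoc, b_comm el hr hr', mul_assoc r', f.r_u hr, ← mul_assoc]

theorem nU_S (el : ∀ r ∈ f.R, r * r = 1) : 𝒩(f.U) ≤ 𝒩(f.S) := by
  obtain ⟨r0, hr0, n0⟩ := f.b_r0
  have CA : 𝒞(f.U) ≤ 𝒩(f.A) := fun c hc => f.cN (f.R_le hr0) (el _ hr0) n0
    (mem_cent1.2 (mem_cent.1 hc _ (f.R_le_U hr0)).symm)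
  have CS : 𝒞(f.U) ≤ 𝒩(f.S) := fun c hc => norm_of_conj fun x hx => by
    obtain ⟨r, hr, a, b, rfl⟩ := f.mem_S.1 hx
    rw [show c * (r * f.u a b) * c⁻¹ = c * r * c⁻¹ * (c * f.u a b * c⁻¹) by group,
      ← mem_cent.1 hc _ (f.R_le_U hr), mul_inv_cancel_right]
    refine mul_mem (f.R_le_S hr) (f.Q_le_S (f.mem_Q_of_comm (b := 1)
      (cm_norm (CA hc) (f.u_mem_A a b)) one_ne_zero ?_))
    have e := mem_cent.1 hc _ (f.Z_le_U (f.z_mem_Z 1))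
    calc c * f.u a b * c⁻¹ * f.z 1 = c * f.u a b * c⁻¹ * (f.z 1 * c) * c⁻¹ := by group
      _ = c * (f.u a b * f.z 1) * c⁻¹ := by rw [e]; group
      _ = (c * f.z 1) * f.u a b * c⁻¹ := by rw [← f.z_u_comm]; group
      _ = _ := by rw [← e]; group
  intro y hy
  refine mem_norm_of_cj_le ((f.sylS.sub (b_SU el) CA).le_of_normal CS ?_ (f.piS.cj y))
  have := cj_mono y (b_SU el)
  rwa [cj_centralizer, cj_eq_of_mem_norm hy] at this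

theorem two_cent (el : ∀ r ∈ f.R, r * r = 1) {m : G} (hm : m ∈ 𝒩(f.S)) {n : ℕ}
    (hn : m ^ 2 ^ n = 1) :
    (∀ b, m * f.z b = f.z b * m) ∧ ∀ x ∈ f.S, f.pa (m * x * m⁻¹) = f.pa x := by
  have uS : ∀ a b, f.u a b ∈ f.S := fun a b => f.Q_le_S (f.u_mem_Q a b)
  choose ρ hρ using fun b => f.mem_Z.1 (cm_norm (nS_Z el hm) (f.z_mem_Z b))
  have hσ : ∀ x ∈ f.S, f.pa (m * x * m⁻¹) = f.pa (m * f.u (f.pa x) 0 * m⁻¹) := fun x hx => by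
    obtain ⟨r, hr, a, b, rfl⟩ := f.mem_S.1 hx
    have hU : r * f.z b ∈ f.U := mul_mem (f.R_le_U hr) (f.Z_le_U (f.z_mem_Z b))
    have hU' := cm_norm (nS_U el hm) hU
    rw [f.pa_eq hr, show r * f.u a b = r * f.z b * f.u a 0 by rw [mul_assoc, f.z_u, zero_add],
      show m * (r * f.z b * f.u a 0) * m⁻¹ = m * (r * f.z b) * m⁻¹ * (m * f.u a 0 * m⁻¹) by group,
      f.pa_mul (f.U_le_S hU') (cm_norm hm (uS a 0)), (f.mem_U_iff (f.U_le_S hU')).1 hU', zero_add]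
  let σ : K8 →+ K8 := AddMonoidHom.mk' (fun a => f.pa (m * f.u a 0 * m⁻¹)) fun a a' => by
    have := hσ _ (mul_mem (uS a 0) (uS a' 0))
    rw [f.pa_mul (uS a 0) (uS a' 0), f.pa_u, f.pa_u] at this
    rw [← this, ← f.pa_mul (cm_norm hm (uS a 0)) (cm_norm hm (uS a' 0))]
    congr 1; group
  let ρ' : K8 →+ K8 := AddMonoidHom.mk' ρ fun a a' => f.z_inj.1 (by
    rw [← f.z_mul, ← hρ, ← hρ, ← hρ, ← f.z_mul]; group)
  have e : ∀ a, ρ' (N a) = N (σ a) := fun a => f.z_inj.1 (by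
    change f.z (ρ (N a)) = f.z (N (f.pa (m * f.u a 0 * m⁻¹)))
    rw [← hρ, ← b_sq el (cm_norm hm (uS a 0)), b_cjsq, f.u_sq])
  have it : ∀ j : ℕ, ∀ a, σ^[j] a = f.pa (m ^ j * f.u a 0 * (m ^ j)⁻¹) := fun j a => by
    induction j with
    | zero => simp [f.pa_u]
    | succ j ih =>
      rw [Function.iterate_succ_apply', ih, pow_succ',
        show m * m ^ j * f.u a 0 * (m * m ^ j)⁻¹ = m * (m ^ j * f.u a 0 * (m ^ j)⁻¹) * m⁻¹ by group,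
        hσ _ (cm_norm (pow_mem hm j) (uS a 0))]
      rfl
  have s := aut0 par σ ρ' e (k := n) fun a => by rw [it, hn]; simp [f.pa_u]
  refine ⟨fun b => ?_, fun x hx => (hσ x hx).trans (s _)⟩
  obtain ⟨a, rfl⟩ := N_surj b
  have := hρ (N a)
  rw [show ρ (N a) = N a from (e a).trans (congrArg N (s a))] at this
  exact mul_inv_eq_iff_eq_mul.1 this

omit [Finite G] in
theorem Be.b_one (h : f.Be g φ) : φ 1 = 0 := by
  have := h.mul 1 (one_mem _) 1 (one_mem _)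
  rwa [one_mul, add_self_K8] at this

omit [Finite G] in
theorem Be.b_inj (h : f.Be g φ) {r s : G} (hr : r ∈ f.R) (hs : s ∈ f.R) (e : φ r = φ s) : r = s := by
  have := h.inj _ (mul_mem hr hs) (by rw [h.mul r hr s hs, e, add_self_K8])
  rw [eq_inv_of_mul_eq_one_left this, inv_eq_of_mul_eq_one_right (h.el s hs)]

theorem b_h0 (f : Fr G) (i : ℕ) {r : G} (hr : r ∈ f.R) (b : K8) :
    f.h0 ^ i * (r * f.z b) * (f.h0 ^ i)⁻¹ = r * f.z (N (k 2) ^ i * b) := by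
  induction i with
  | zero => simp
  | succ i ih =>
    rw [pow_succ', show f.h0 * f.h0 ^ i * (r * f.z b) * (f.h0 * f.h0 ^ i)⁻¹ =
      f.h0 * (f.h0 ^ i * (r * f.z b) * (f.h0 ^ i)⁻¹) * f.h0⁻¹ by group, ih, ← mul_assoc, f.h0_r hr,
      mul_assoc r, mul_assoc r, f.h0_z, pow_succ', mul_assoc]

theorem Be.b_tor (h : f.Be g φ) (i : ℕ) : f.Be (f.h0 ^ i * g) fun r => N (k 2) ^ i * φ r where
  el := h.el
  nS := mul_mem (pow_mem f.h0_nS i) h.nS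
  nA e := h.nA ((mul_mem_cancel_left (pow_mem (le_normalizer f.h0_mem) i)).1 e)
  mul r hr s hs := by rw [h.mul r hr s hs, mul_add]
  inj r hr e := h.inj r hr ((mul_eq_zero.1 e).resolve_left (pow_ne_zero _ (by decide +kernel)))
  mem r hr := by
    rw [← f.b_h0 i hr, cj_mul, conj_mem_cj]; exact h.mem r hr

theorem Be.norm (h : f.Be g φ) (h4 : 4 ≤ Nat.card f.R) : ∃ g' φ', f.Be g' φ' ∧
    ((∀ v, ∃ r ∈ f.R, φ' r = v) ∨ ∀ v, tr v = 0 ↔ ∃ r ∈ f.R, φ' r = v) := by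
  let Y : AddSubgroup K8 :=
    { carrier := {v | ∃ r ∈ f.R, φ r = v}
      add_mem' := by
        rintro _ _ ⟨r, hr, rfl⟩ ⟨s, hs, rfl⟩
        exact ⟨r * s, mul_mem hr hs, h.mul r hr s hs⟩
      zero_mem' := ⟨1, one_mem _, h.b_one⟩
      neg_mem' := by
        rintro _ ⟨r, hr, rfl⟩
        exact ⟨r, hr, eq_neg_of_add_eq_zero_left (add_self_K8 _)⟩ }
  rcases range_cases Y (h4.trans (Nat.card_le_card_of_injective
    (fun r : f.R => (⟨φ r, r, r.2, rfl⟩ : Y)) fun r s e =>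
      Subtype.ext (h.b_inj r.2 s.2 (congrArg Subtype.val e)))) with e | ⟨i, e⟩
  · exact ⟨g, φ, h, Or.inl fun v => (e.ge (AddSubgroup.mem_top v) : v ∈ Y)⟩
  · refine ⟨_, _, h.b_tor i, Or.inr fun v => (e v).trans ⟨?_, ?_⟩⟩
    · rintro ⟨_, ⟨r, hr, rfl⟩, e⟩
      exact ⟨r, hr, e⟩
    · rintro ⟨r, hr, e⟩
      exact ⟨_, ⟨r, hr, rfl⟩, e⟩

theorem b_cjR {m : G} (hm : m ∈ 𝒩(f.S)) : cj m f.R = f.S ⊓ cj m 𝒞(f.A) := by
  rw [← f.S_inf_C, cj_inf, cj_eq_of_mem_norm hm]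

theorem b_z0 (el : ∀ r ∈ f.R, r * r = 1) {m : G} {b : K8} (h : f.z b ∈ cj m 𝒞(f.A)) : b = 0 :=
  by_contra fun n => not_inv_z el b ⟨f.z_sq b, fun e => n (f.z_eq_one.1 e), m, h⟩

theorem Be.b_blk (h : f.Be g φ) (x : G) : x ∈ cj g f.R ↔ ∃ r ∈ f.R, x = r * f.z (φ r) := by
  constructor
  · intro hx
    have hU : x ∈ f.U := by
      obtain ⟨y, hy, rfl⟩ := mem_cj'.1 hx
      exact cm_norm (nS_U h.el h.nS) (f.R_le_U hy)
    obtain ⟨r, hr, b, rfl⟩ := f.mem_U.1 hU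
    rw [b_cjR h.nS] at hx
    have := mul_mem (inv_mem (h.mem r hr)) hx.2
    rw [show (r * f.z (φ r))⁻¹ * (r * f.z b) = (f.z (φ r))⁻¹ * f.z b by group, f.z_inv, f.z_mul] at this
    have e := b_z0 h.el this
    exact ⟨r, hr, by rw [eq_neg_of_add_eq_zero_left e, ← eq_neg_of_add_eq_zero_left (add_self_K8 b)]⟩
  · rintro ⟨r, hr, rfl⟩
    rw [b_cjR h.nS]
    exact ⟨mul_mem (f.R_le_S hr) (f.Q_le_S (f.Z_le_Q (f.z_mem_Z _))), h.mem r hr⟩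

theorem Be.blk_sur (h : f.Be g φ) (μ : K8) :
    ∃ m ∈ 𝒩(f.S), ∀ x, x ∈ cj m f.R ↔ ∃ r ∈ f.R, x = r * f.z (μ * φ r) := by
  by_cases h0 : μ = 0
  · exact ⟨1, one_mem _, fun x => by simp [h0]⟩
  · obtain ⟨i, rfl⟩ := gen_N gen_l μ h0
    exact ⟨_, (h.b_tor i).nS, (h.b_tor i).b_blk⟩

theorem b_same (el : ∀ r ∈ f.R, r * r = 1) {m m' x : G} (h1 : x ≠ 1) (hx : x ∈ cj m f.R)
    (hx' : x ∈ cj m' f.R) : m⁻¹ * m' ∈ 𝒩(f.A) := by
  have hy := mem_cj.1 hx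
  refine f.ti _ _ (f.R_le hy) ?_ (el _ hy) fun e => h1 (by
    rw [show x = m * (m⁻¹ * x * m) * m⁻¹ by group, e]; group)
  rw [mem_cj, show (m⁻¹ * m')⁻¹ * (m⁻¹ * x * m) * (m⁻¹ * m') = m'⁻¹ * x * m' by group]
  exact f.R_le (mem_cj.1 hx')

theorem b_eq {m m' : G} (hm : m ∈ 𝒩(f.S)) (hm' : m' ∈ 𝒩(f.S)) (h : m⁻¹ * m' ∈ 𝒩(f.A)) :
    cj m' f.R = cj m f.R := by
  rw [show m' = m * (m⁻¹ * m') by group, cj_mul, b_cjR (mul_mem (inv_mem hm) hm'), cj_centralizer,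
    cj_eq_of_mem_norm h, f.S_inf_C]

/-- every element of `N(S)` maps `R` onto a block -/
theorem Be.blk (h : f.Be g φ) {m : G} (hm : m ∈ 𝒩(f.S)) :
    ∃ μ : K8, ∀ x, x ∈ cj m f.R ↔ ∃ r ∈ f.R, x = r * f.z (μ * φ r) := by
  obtain ⟨r0, hr0, n0⟩ := f.b_r0
  obtain ⟨r, hr, b, e⟩ := f.mem_U.1 (cm_norm (nS_U h.el hm) (f.R_le_U hr0))
  have x1 : m * r0 * m⁻¹ ≠ 1 := fun e => n0 (by simpa using e)
  have p : φ r ≠ 0 := fun e' => by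
    rw [h.inj r hr e', one_mul] at e
    rw [b_z0 h.el (m := m) (b := b) (e ▸ conj_mem_cj.2 (f.R_le hr0)), f.z_zero] at e
    exact x1 e
  obtain ⟨m', hm', hb⟩ := h.blk_sur (b / φ r)
  refine ⟨_, b_eq hm' hm (b_same h.el x1 ((hb _).2 ⟨r, hr, ?_⟩) (conj_mem_cj.2 hr0)) ▸ hb⟩
  rw [div_mul_cancel₀ _ p, e]

theorem Be.b_uniq (h : f.Be g φ) {B : Subgroup G} {μ μ' : K8}
    (h1 : ∀ x, x ∈ B ↔ ∃ r ∈ f.R, x = r * f.z (μ * φ r))
    (h2 : ∀ x, x ∈ B ↔ ∃ r ∈ f.R, x = r * f.z (μ' * φ r)) : μ = μ' := by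
  obtain ⟨r0, hr0, n0⟩ := f.b_r0
  obtain ⟨r, hr, e⟩ := (h2 _).1 ((h1 _).2 ⟨r0, hr0, rfl⟩)
  obtain ⟨rfl, e'⟩ := b_rz hr0 hr e
  exact mul_right_cancel₀ (fun e => n0 (h.inj _ hr0 e)) e'

theorem Be.index (h : f.Be g φ) : (𝒩(f.A)).relIndex 𝒩(f.S) = 8 := by
  choose Λ hΛ using fun m : 𝒩(f.S) => h.blk m.2
  obtain ⟨r0, hr0, n0⟩ := f.b_r0
  rw [← card_K8, relIndex, Subgroup.index]
  refine Nat.card_eq_of_bijective (Quotient.lift Λ fun a b e => ?_) ⟨fun a b => ?_, fun μ => ?_⟩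
  · have e : a⁻¹ * b ∈ (𝒩(f.A)).subgroupOf 𝒩(f.S) := QuotientGroup.leftRel_apply.1 e
    exact h.b_uniq (hΛ a) (b_eq a.2 b.2 e ▸ hΛ b)
  · refine Quotient.inductionOn₂ a b fun a b e => Quotient.sound (QuotientGroup.leftRel_apply.2 ?_)
    have e : Λ a = Λ b := e
    refine b_same h.el (x := r0 * f.z (Λ a * φ r0)) (fun e => n0 (b_rz hr0 (one_mem _) (b := 0)
      (e.trans (by rw [f.z_zero, one_mul]))).1)
      ((hΛ a _).2 ⟨r0, hr0, rfl⟩) ((hΛ b _).2 ⟨r0, hr0, by rw [e]⟩)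
  · obtain ⟨m, hm, hb⟩ := h.blk_sur μ
    exact ⟨Quotient.mk _ ⟨m, hm⟩, h.b_uniq (hΛ ⟨m, hm⟩) hb⟩

/-- 2-elements of `N(S)` act as translations -/
theorem Be.two (h : f.Be g φ) {m : G} (hm : m ∈ 𝒩(f.S)) {n : ℕ} (hn : m ^ 2 ^ n = 1) :
    ∃ μ : K8, ∀ r ∈ f.R, m * r * m⁻¹ = r * f.z (μ * φ r) := by
  obtain ⟨cz, -⟩ := two_cent h.el hm hn
  obtain ⟨μ, hμ⟩ := h.blk hm
  obtain ⟨μ', hμ'⟩ := h.blk (mul_mem hm h.nS)
  have st : ∀ r ∈ f.R, ∃ s ∈ f.R, m * r * m⁻¹ = s * f.z (μ * φ s) ∧ (μ + μ') * φ s = φ r := by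
    intro r hr
    obtain ⟨s, hs, e⟩ := (hμ _).1 (conj_mem_cj.2 hr)
    obtain ⟨s', hs', e'⟩ := (hμ' (m * (r * f.z (φ r)) * m⁻¹)).1 (by
      rw [cj_mul, conj_mem_cj]; exact (h.b_blk _).2 ⟨r, hr, rfl⟩)
    rw [show m * (r * f.z (φ r)) * m⁻¹ = m * r * m⁻¹ * (m * f.z (φ r) * m⁻¹) by group, e, cz,
      mul_inv_cancel_right, mul_assoc, f.z_mul] at e'
    obtain ⟨rfl, e2⟩ := b_rz hs hs' e'
    refine ⟨s, hs, e, ?_⟩
    rw [add_mul, ← e2, ← add_assoc, add_self_K8, zero_add]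
  have it : ∀ j : ℕ, ∀ r ∈ f.R, ∃ s ∈ f.R, ∃ b, m ^ j * r * (m ^ j)⁻¹ = s * f.z b ∧
      (μ + μ') ^ j * φ s = φ r := fun j r hr => by
    induction j with
    | zero => exact ⟨r, hr, 0, by simp, by simp⟩
    | succ j ih =>
      obtain ⟨s, hs, b, e, e'⟩ := ih
      obtain ⟨s', hs', e1, e2⟩ := st s hs
      refine ⟨s', hs', μ * φ s' + b, ?_, by rw [pow_succ, mul_assoc, e2, e']⟩
      rw [pow_succ', show m * m ^ j * r * (m * m ^ j)⁻¹ = m * (m ^ j * r * (m ^ j)⁻¹) * m⁻¹ by group, e,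
        show m * (s * f.z b) * m⁻¹ = m * s * m⁻¹ * (m * f.z b * m⁻¹) by group, e1, cz,
        mul_inv_cancel_right, mul_assoc, f.z_mul]
  have s1 : μ + μ' = 1 := by
    obtain ⟨r0, hr0, n0⟩ := f.b_r0
    obtain ⟨s, hs, b, e, e'⟩ := it (2 ^ n) r0 hr0
    rw [hn, one_mul, inv_one, mul_one] at e
    obtain ⟨rfl, -⟩ := b_rz hr0 hs (a := 0) (b := b) (by rw [f.z_zero, mul_one]; exact e)
    have e1 : (μ + μ') ^ 2 ^ n = 1 := mul_right_cancel₀ (fun e => n0 (h.inj _ hr0 e))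
      (e'.trans (one_mul _).symm)
    generalize μ + μ' = s at e1
    clear hn e e'
    induction n with
    | zero => simpa using e1
    | succ n ih =>
      rw [pow_succ, pow_mul] at e1
      exact ih ((by decide +kernel : ∀ x : K8, x ^ 2 = 1 → x = 1) _ e1)
  refine ⟨μ, fun r hr => ?_⟩
  obtain ⟨s, hs, e, e'⟩ := st r hr
  rw [s1, one_mul] at e'
  rwa [h.b_inj hs hr e'] at e

end Fr

end Cfsg.Agent.SZR
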