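import Cfsg.Agent.SZR.Bas

/-! The two kinds of links. -/

set_option autoImplicit false
set_option linter.unusedSectionVars false
set_option linter.unusedVariables false

namespace Cfsg.Agent.SZR

open Subgroup H13 H49 SZS

namespace Fr

variable {G : Type*} [Group G] [Finite G] {f f' : Fr G} {L : Subgroup G}

theorem lk_eq : ∀ a b : K8, a + b = 0 → a = b := by decide +kernel

theorem lk_cm {p : K8} (h : ∀ x, cm p x = 0) : p = 0 := by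
  rcases cm_eq_zero (h 1) with e | e | e
  · exact e
  · exact absurd e one_ne_zero
  rcases cm_eq_zero (h (k 2)) with e' | e' | e'
  · exact e'
  · exact absurd e' (by decide +kernel)
  · exact absurd (e.trans e'.symm) (by decide +kernel)

theorem lk_pi {t : G} (tt : t * t = 1) : IsPi {2} (zpowers t) :=
  isPi_zpowers.2 ((isPiNat_singleton_pow Nat.prime_two 1).of_dvd
    (orderOf_dvd_of_pow_eq_one (by rw [pow_one, pow_two, tt])))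

theorem lk_z0 (f : Fr G) : f.z 0 = 1 := f.z_eq_one.2 rfl

theorem lk_zS (f : Fr G) (b : K8) : f.z b ∈ f.S := f.Q_le_S (f.u_mem_Q 0 b)

theorem lk_uS (f : Fr G) (a b : K8) : f.u a b ∈ f.S := f.Q_le_S (f.u_mem_Q a b)

theorem lk_U (f : Fr G) {x : G} (hx : x ∈ f.S) (h : f.pa x = 0) : x = f.pr x * f.z (f.pb x) := by
  have := f.S_eq hx
  rwa [h] at this

theorem lk_UU (f : Fr G) {x y : G} (hx : x ∈ f.S) (hy : y ∈ f.S) (h : f.pa x = 0) (h' : f.pa y = 0)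
    (e : f.pb x = f.pb y) : x * y ∈ 𝒞(f.A) := by
  rw [f.lk_U hx h, f.lk_U hy h', e, mul_assoc, ← mul_assoc (f.z _), ← f.r_z (f.pr_mem y), mul_assoc,
    f.z_sq, mul_one]
  exact f.R_le (f.R.mul_mem (f.pr_mem x) (f.pr_mem y))

theorem lk_step (hc : Cj f f') (ne : f'.A ≠ f.A) (hz : ∀ b, b ≠ 0 → f.z b ∉ 𝒞(f'.A)) {t : G}
    (h1 : t ∈ 𝒞(f'.A)) (h2 : t ∈ f.S) (tt : t * t = 1) (t1 : t ≠ 1) {ρ : G} (hρ : ρ ∈ f.R)
    (c : ρ * f.pr t = f.pr t * ρ) : ρ * ρ = 1 ∧ ∃ b, ρ * f.z b ∈ 𝒞(f'.A) := by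
  have et := f.lk_U h2 (f.pa_of_sq h2 (tt ▸ one_mem _))
  obtain ⟨f'', eA, le⟩ := f'.exists_le_S (P := f.S ⊓ 𝒞[t]) (inf_le_right.trans (f'.cN h1 tt t1))
    (f.piS.inf_left _)
  rw [← eA] at hz ne ⊢
  have hc' := hc.of_eq eA
  have hz' : ∀ b, f.z b ∈ 𝒞(f''.A) → b = 0 := fun b h => by_contra fun e => hz b e h
  have uS : ∀ a b, f.u a b ∈ f''.S := fun a b => le ⟨f.lk_uS a b, mem_cent1.2 (by
    rw [et, ← mul_assoc, ← f.r_u (f.pr_mem t), mul_assoc, mul_assoc, f.z_u_comm])⟩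
  have ρS : ρ ∈ f''.S := le ⟨f.R_le_S hρ, mem_cent1.2 (by
    rw [et, ← mul_assoc, c, mul_assoc, mul_assoc, f.r_z hρ])⟩
  have paz : ∀ b, f''.pa (f.z b) = 0 := fun b => f''.pa_of_sq (uS 0 b) (by
    change f.z b * f.z b ∈ _
    rw [f.z_sq]; exact one_mem _)
  have pau : ∀ a b, f''.pa (f.u a b) = f''.pa (f.u a 0) := fun a b => by
    rw [← zero_add b, ← f.u_z, f''.pa_mul (uS a 0) (show f.z b ∈ _ from uS 0 b), paz, add_zero]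
  have inj : Function.Injective fun a => f''.pa (f.u a 0) := fun a x e => by
    have e1 : f''.pa (f.u (a + x) 0) = 0 := by
      rw [← pau _ (0 + 0 + θ a * x), ← f.u_mul, f''.pa_mul (uS a 0) (uS x 0)]
      simp only at e
      rw [e, add_self_K8]
    have e2 := f''.S_sq (uS (a + x) 0)
    rw [e1, N_zero, lk_z0, mul_one, f.u_sq] at e2
    exact lk_eq _ _ (N_eq_zero.1 (hz' _ (e2 ▸ f''.R_le (f''.R.mul_mem (f''.pr_mem _) (f''.pr_mem _)))))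
  have pρ : f''.pa ρ = 0 := lk_cm fun x => by
    obtain ⟨a, rfl⟩ := Finite.surjective_of_injective inj x
    exact f''.pa_comm ρS (uS a 0) (f.r_u hρ a 0)
  have inj2 : Function.Injective fun b => f''.pb (f.z b) := fun b b' e => lk_eq _ _ (hz' _ (by
    rw [← f.z_mul]; exact f''.lk_UU (uS 0 b) (uS 0 b') (paz b) (paz b') e))
  obtain ⟨b, hb⟩ := Finite.surjective_of_injective inj2 (f''.pb ρ)
  refine ⟨?_, b, f''.lk_UU ρS (uS 0 b) pρ (paz b) hb.symm⟩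
  obtain ⟨n, hn⟩ := f.S_pow (f.R_le_S (f.R.mul_mem hρ hρ))
  exact hc'.ti ne (f.R_le (f.R.mul_mem hρ hρ)) (f''.lk_UU ρS ρS pρ pρ rfl) hn

theorem lk_a1 (eS : f'.S = f.S) {b : K8} (hb : b ≠ 0) (hz : f.z b ∈ 𝒞(f'.A)) :
    (∀ c, f.z c ∈ 𝒞(f'.A)) ∧ ∀ a c, f'.pa (f.u a c) = 0 := by
  obtain ⟨a, rfl⟩ := N_surj b
  have uS : ∀ a b, f.u a b ∈ f'.S := fun a b => eS ▸ f.lk_uS a b
  have ex := f'.lk_U (uS a 0) (f'.pa_of_sq (uS a 0) (by rwa [f.u_sq]))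
  have c1 : ∀ y, f.z (cm a y) ∈ 𝒞(f'.A) := fun y => by
    have e : f.z (cm a y) = f.u a 0 * (f.u y 0 * (f.u a 0)⁻¹ * (f.u y 0)⁻¹) := by
      rw [← mul_assoc, ← mul_assoc, f.u_comm a 0 y 0]; group
    have c := f'.S_z (uS y 0) (f'.pb (f.u a 0))
    have m := conj_mem_of_norm f'.S_nR (uS y 0) (f'.R.inv_mem (f'.pr_mem (f.u a 0)))
    have m' := f'.pr_mem (f.u a 0)
    rw [e, ex]
    generalize f'.pr (f.u a 0) = r, f'.z (f'.pb (f.u a 0)) = w, f.u y 0 = v at *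
    have : r * w * (v * (r * w)⁻¹ * v⁻¹) = r * (v * r⁻¹ * v⁻¹) := by
      rw [mul_inv_rev, ← mul_assoc v, mul_assoc r, ← mul_assoc w, ← mul_assoc w, ← mul_assoc w, ← c]
      group
    rw [this]
    exact f'.R_le (f'.R.mul_mem m' m)
  have c2 : ∀ c, f.z c ∈ 𝒞(f'.A) := fun c => by
    rcases cm_or (a := a) (fun e => hb (by rw [e, N_zero])) c with ⟨x, rfl⟩ | ⟨x, rfl⟩
    · exact c1 x
    · rw [← f.z_mul]; exact mul_mem hz (c1 x)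
  exact ⟨c2, fun a c => f'.pa_of_sq (uS a c) (by rw [f.u_sq]; exact c2 _)⟩

theorem lk_a2 (eS : f'.S = f.S) (hz : ∀ c, f.z c ∈ 𝒞(f'.A)) (p1 : ∀ a c, f'.pa (f.u a c) = 0)
    (p2 : ∀ a c, f.pa (f'.u a c) = 0) : f.Q ≤ f'.R := by
  have h0 : f.h0 ∈ 𝒩(f'.A) := f'.ti f.h0 (f.z (N (k 2) * 1)) (hz _)
    (by rw [← f.h0_z]; exact conj_mem_cj.2 (hz 1)) (f.z_sq _)
    (fun e => absurd (f.z_eq_one.1 e) (by decide +kernel))
  rw [← f'.S_inf_C, eS]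
  refine le_inf f.Q_le_S fun x hx => ?_
  obtain ⟨a, b, rfl⟩ := f.mem_Q.1 hx
  obtain ⟨a0, rfl⟩ : ∃ a0, a = k 2 * a0 + a0 := by clear * -; revert a; decide +kernel
  have uS : f.u a0 0 ∈ f'.S := eS ▸ f.lk_uS a0 0
  have e1 := f'.S_eq uS
  obtain ⟨y, hy⟩ : ∃ y, y = f'.pr (f.u a0 0) := ⟨_, rfl⟩
  have yR : y ∈ f'.R := hy ▸ f'.pr_mem _
  have yS : y ∈ f.S := eS ▸ f'.R_le_S yR
  have py : f.pa y = a0 := by
    have := congrArg f.pa e1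
    rw [← hy, f.pa_mul yS (eS ▸ f'.lk_uS _ _), p2, add_zero, f.pa_u] at this
    exact this.symm
  have e2 := f.S_eq yS
  rw [py] at e2
  have m : f.h0 * y * f.h0⁻¹ * y⁻¹ ∈ 𝒞(f'.A) :=
    mul_mem (conj_mem_of_norm (norm_cent (zpowers_le.2 h0)) (mem_zpowers _) (f'.R_le yR))
      (inv_mem (f'.R_le yR))
  have c1 := f.h0_r (f.pr_mem y)
  have c2 := f.r_u (f.pr_mem y)
  have e3 : f.h0 * y * f.h0⁻¹ * y⁻¹ =
      f.u (k 2 * a0) (N (k 2) * f.pb y) * (f.u a0 (f.pb y))⁻¹ := by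
    conv_lhs => rw [e2]
    generalize f.pr y = r at c1 c2
    rw [c2 a0, ← mul_assoc, mul_assoc _ r, show r * f.h0⁻¹ = f.h0⁻¹ * r by
      rw [eq_inv_mul_iff_mul_eq, ← mul_assoc, c1, mul_inv_cancel_right], ← f.h0_u]
    group
  rw [e3, f.u_inv, f.u_mul] at m
  generalize N (k 2) * f.pb y + (f.pb y + N a0) + θ (k 2 * a0) * a0 = d at m
  have := mul_mem m (hz (d + b))
  rwa [f.u_z, ← add_assoc, add_self_K8, zero_add] at this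

theorem lk_a3 (hc : Cj f f') (ne : f'.A ≠ f.A) (eS : f'.S = f.S) (h : f'.Q ≤ f.R) : f'.Q = f.R := by
  refine le_antisymm h fun ρ hρ => ?_
  have ρS : ρ ∈ f'.S := eS ▸ f.R_le_S hρ
  have e := f'.S_eq ρS
  have m : f'.pr ρ ∈ f.R := by
    rw [eq_mul_inv_of_mul_eq e.symm]
    exact mul_mem hρ (inv_mem (h (f'.u_mem_Q _ _)))
  obtain ⟨n, hn⟩ := f.S_pow (f.R_le_S m)
  rw [e, hc.ti ne (f.R_le m) (f'.R_le (f'.pr_mem ρ)) hn, one_mul]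
  exact f'.u_mem_Q _ _

theorem link_b (hc : Cj f f') (ne : f'.A ≠ f.A) (hz : ∀ b, b ≠ 0 → f.z b ∉ 𝒞(f'.A)) {t : G}
    (h1 : t ∈ 𝒞(f'.A)) (h2 : t ∈ f.S) (tt : t * t = 1) (t1 : t ≠ 1) :
    ∃ g φ, cj g f.A = f'.A ∧ f.Be g φ := by
  obtain ⟨ρ0, r0, r2, r1, rc⟩ := f.exists_cen
  obtain ⟨-, b0, hb0⟩ := lk_step hc ne hz h1 h2 tt t1 r0 (rc _ (f.pr_mem t))
  have s0 : ρ0 * f.z b0 * (ρ0 * f.z b0) = 1 := by
    rw [mul_assoc, ← mul_assoc (f.z b0), ← f.r_z r0, mul_assoc, f.z_sq, mul_one, r2]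
  have n0 : ρ0 * f.z b0 ≠ 1 := fun e => r1 (f.ru_inj r0 (one_mem _) (a := 0) (b := b0) (x := 0)
    (y := 0) (by rw [one_mul]; exact e.trans f.lk_z0.symm)).1
  have st : ∀ ρ ∈ f.R, ρ * ρ = 1 ∧ ∃ b, ρ * f.z b ∈ 𝒞(f'.A) := fun ρ hρ =>
    lk_step hc ne hz hb0 (mul_mem (f.R_le_S r0) (f.lk_zS b0)) s0 n0 hρ (by
      rw [z, f.pr_eq r0, rc ρ hρ])
  have ex : ∀ ρ, ∃ b, ρ ∈ f.R → ρ * f.z b ∈ 𝒞(f'.A) := fun ρ => by
    by_cases h : ρ ∈ f.R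
    · obtain ⟨b, hb⟩ := (st ρ h).2
      exact ⟨b, fun _ => hb⟩
    · exact ⟨0, fun h' => absurd h' h⟩
  choose φ hφ using ex
  have un : ∀ {ρ b b'}, ρ * f.z b ∈ 𝒞(f'.A) → ρ * f.z b' ∈ 𝒞(f'.A) → b = b' := fun {ρ b b'} a a' =>
    lk_eq _ _ (by_contra fun e => hz _ e (by
      have := mul_mem (inv_mem a) a'
      rwa [mul_inv_rev, mul_assoc, inv_mul_cancel_left, inv_eq_of_mul_eq_one_right (f.z_sq b),
        f.z_mul] at this))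
  have le : f.S ≤ 𝒩(f'.A) := le_trans (fun x hx => mem_cent1.2 (by
    have c : x * ρ0 = ρ0 * x := by
      rw [f.S_eq hx, mul_assoc, ← f.r_u r0, ← mul_assoc, ← rc _ (f.pr_mem x), mul_assoc]
    rw [← mul_assoc, c, mul_assoc, f.S_z hx, mul_assoc])) (f'.cN hb0 s0 n0)
  have sy := f'.sylS.of_card_le le f.piS hc.card_S.le
  obtain ⟨g0, e0⟩ := hc
  have sy' := f.sylS.cj g0
  rw [cj_normalizer, ← e0] at sy'
  obtain ⟨n, hn, e1⟩ := sylowOf_conj sy' sy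
  have eA : cj (n * g0) f.A = f'.A := by rw [cj_mul, ← e0, cj_eq_of_mem_norm hn]
  have eK : cj (n * g0) 𝒞(f.A) = 𝒞(f'.A) := by rw [cj_centralizer, eA]
  refine ⟨n * g0, φ, eA, fun r hr => (st r hr).1, mem_norm_iff_cj.2 (by rw [cj_mul, e1]),
    fun h => ne (eA ▸ cj_eq_of_mem_norm h), fun r hr s hs => un (hφ _ (mul_mem hr hs)) ?_,
    fun r hr e => ?_, fun r hr => eK ▸ hφ r hr⟩
  · have := mul_mem (hφ r hr) (hφ s hs)
    rwa [mul_assoc, ← mul_assoc (f.z _), ← f.r_z hs, mul_assoc, f.z_mul, ← mul_assoc] at this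
  · have := hφ r hr
    rw [e, lk_z0, mul_one] at this
    exact Cj.ti ⟨g0, e0⟩ ne (f.R_le hr) this (n := 1) (by rw [pow_one, pow_two, (st r hr).1])

theorem link_a (hc : Cj f f') (ne : f'.A ≠ f.A) {b : K8} (hb : b ≠ 0) (hz : f.z b ∈ 𝒞(f'.A)) :
    f.Z ≤ 𝒞(f'.A) ∧ ∃ f'' : Fr G, f''.A = f'.A ∧ Al f f'' := by
  obtain ⟨f'', eA, le⟩ := f'.exists_le_S (P := f.S) (le_trans (fun x hx => mem_cent1.2 (f.S_z hx b))
    (f'.cN hz (f.z_sq b) fun e => hb (f.z_eq_one.1 e))) f.piS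
  have hc' := hc.of_eq eA
  have eS : f''.S = f.S := (eq_of_le_of_card_ge le hc'.card_S.le).symm
  rw [← eA] at hz ne
  obtain ⟨z1, p1⟩ := lk_a1 eS hb hz
  obtain ⟨b', hb', hz'⟩ : ∃ b', b' ≠ 0 ∧ f''.z b' ∈ 𝒞(f.A) := by
    by_contra hn
    obtain ⟨ρ0, r0, r2, r1, -⟩ := f.exists_cen
    obtain ⟨g, φ, -, be⟩ := link_b hc'.symm ne.symm (fun b' h1 h2 => hn ⟨b', h1, h2⟩) (f.R_le r0)
      (eS ▸ f.R_le_S r0) r2 r1
    have := f''.S_sq (eS ▸ f.lk_uS 1 0)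
    rw [p1, be.el _ (f''.pr_mem _), N_zero, lk_z0, mul_one, f.u_sq, N_one, f.z_eq_one] at this
    exact one_ne_zero this
  obtain ⟨z2, p2⟩ := lk_a1 eS.symm hb' hz'
  refine ⟨fun x hx => ?_, f'', eA, hc', eS, (lk_a3 hc'.symm ne.symm eS.symm (lk_a2 eS z1 p1 p2)).symm,
    lk_a3 hc' ne eS (lk_a2 eS.symm z2 p2 p1)⟩
  obtain ⟨c, rfl⟩ := f.mem_Z.1 hx
  exact eA ▸ z1 c

theorem Al.not_el (h : Al f f') : ¬ ∀ r ∈ f.R, r * r = 1 := fun el => by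
  have := el _ (h.Q ▸ f'.u_mem_Q 1 0)
  rw [f'.u_sq, N_one, f'.z_eq_one] at this
  exact one_ne_zero this

theorem not_inv_z (el : ∀ r ∈ f.R, r * r = 1) (b : K8) : ¬ f.Inv (f.z b) := fun h => by
  obtain ⟨-, h1, f', hc, hz⟩ := f.inv_iff.1 h
  by_cases e : f'.A = f.A
  · exact h1 (f.cent_A (f.u_mem_A 0 b) (e ▸ hz))
  · obtain ⟨-, f'', -, a⟩ := link_a hc e (fun e => h1 (f.z_eq_one.2 e)) hz
    exact a.not_el el

theorem Amb.link (h : f.Amb L) : (∃ f', Al f f') ∨ ∃ g φ, f.Be g φ := by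
  obtain ⟨g, gN, t, h1, h2, tt, t1⟩ := h.lk
  obtain ⟨n, hn, le⟩ := sylowOf_subJ f.sylS (zpowers_le.2 h2) (lk_pi tt)
  have ne : (f.conj (n * g)).A ≠ f.A := fun e =>
    gN (by simpa using mul_mem (inv_mem hn) (mem_norm_iff_cj.2 e))
  by_cases hz : ∃ b, b ≠ 0 ∧ f.z b ∈ 𝒞((f.conj (n * g)).A)
  · obtain ⟨b, hb, hz⟩ := hz
    obtain ⟨-, f'', -, a⟩ := link_a (f.cj_conj _) ne hb hz
    exact Or.inl ⟨f'', a⟩
  · obtain ⟨g', φ, -, be⟩ := link_b (f.cj_conj _) ne (fun b h1 h2 => hz ⟨b, h1, h2⟩)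
      (t := n * t * n⁻¹) (by rw [conj_C, cj_mul]; exact conj_mem_cj.2 h1)
      (le (conj_mem_cj.2 (mem_zpowers t))) (by rw [conj_mul, tt]; simp) (by simpa using t1)
    exact Or.inr ⟨g', φ, be⟩

end Fr

end Cfsg.Agent.SZR
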