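import Cfsg.Agent.SZR.Blk

/-! The group W. -/

set_option autoImplicit false

namespace Cfsg.Agent.SZR

open Subgroup H13 H49 SZS

namespace Fr

variable {G : Type*} [Group G] [Finite G] {f : Fr G} {g : G} {φ : G → K8}

/-- the elements of `N(S)` that act as translations on `U` -/
def wfT (f : Fr G) (φ : G → K8) : Subgroup G where
  carrier := {c | c ∈ 𝒩(f.S) ∧ (∀ b, c * f.z b = f.z b * c) ∧
    ∃ μ : K8, ∀ r ∈ f.R, c * r * c⁻¹ = r * f.z (μ * φ r)}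
  one_mem' := ⟨one_mem _, fun b => by simp, 0, fun r _ => by simp⟩
  mul_mem' := by
    rintro a c ⟨a1, a2, μ, a3⟩ ⟨c1, c2, ν, c3⟩
    refine ⟨mul_mem a1 c1, fun b => by rw [mul_assoc, c2, ← mul_assoc, a2, mul_assoc], μ + ν,
      fun r hr => ?_⟩
    rw [show a * c * r * (a * c)⁻¹ = a * (c * r * c⁻¹) * a⁻¹ by group, c3 r hr,
      show a * (r * f.z (ν * φ r)) * a⁻¹ = a * r * a⁻¹ * (a * f.z (ν * φ r) * a⁻¹) by group, a3 r hr, a2,
      mul_inv_cancel_right, mul_assoc, f.z_mul, add_mul]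
  inv_mem' := by
    rintro a ⟨a1, a2, μ, a3⟩
    refine ⟨inv_mem a1, fun b => ?_, μ, fun r hr => ?_⟩
    · rw [inv_mul_eq_iff_eq_mul, ← mul_assoc, a2, mul_inv_cancel_right]
    · rw [inv_inv, mul_assoc, inv_mul_eq_iff_eq_mul,
        show a * (r * f.z (μ * φ r)) = a * r * a⁻¹ * (a * f.z (μ * φ r)) by group, a3 r hr, a2,
        mul_assoc, ← mul_assoc (f.z _), f.z_sq, one_mul]

theorem Be.wf_le (h : f.Be g φ) {W : Subgroup G} (h1 : W ≤ 𝒩(f.S)) (h2 : IsPi {2} W) :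
    W ≤ wfT f φ := fun x hx => by
  obtain ⟨n, hn⟩ := pow_of_pg (h2.isPGroup Nat.prime_two) hx
  exact ⟨h1 hx, (two_cent h.el (h1 hx) hn).1, h.two (h1 hx) hn⟩

omit [Finite G] in
theorem wf_pow {n : G} (hu : ∀ a b, ∃ b', n * f.u a b * n⁻¹ = f.u (k 2 * a) b') (i : ℕ) (a b : K8) :
    ∃ b', n ^ i * f.u a b * (n ^ i)⁻¹ = f.u (k 2 ^ i * a) b' := by
  induction i with
  | zero => exact ⟨b, by simp⟩
  | succ i ih =>
    obtain ⟨c, hc⟩ := ih
    obtain ⟨d, hd⟩ := hu (k 2 ^ i * a) c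
    exact ⟨d, by rw [pow_succ', show n * n ^ i * f.u a b * (n * n ^ i)⁻¹ =
      n * (n ^ i * f.u a b * (n ^ i)⁻¹) * n⁻¹ by group, hc, hd, pow_succ', mul_assoc]⟩

theorem Be.exists_wf (h : f.Be g φ) (h4 : 4 ≤ Nat.card f.R) : ∃ w : Wf G, w.toFr = f := by
  obtain ⟨g, φ, h, rng⟩ := h.norm h4
  obtain ⟨W, hW, SW⟩ := exists_sylowOf_ge f.piS (le_normalizer (H := f.S))
  obtain ⟨r0, hr0, n0⟩ := f.b_r0
  have p0 : φ r0 ≠ 0 := fun e => n0 (h.inj _ hr0 e)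
  have WT := h.wf_le hW.le hW.pi
  choose! lam hlam using fun x (hx : x ∈ W) => (WT hx).2.2
  have wz : ∀ w ∈ W, ∀ b, w * f.z b = f.z b * w := fun w hw => (WT hw).2.1
  have sur : ∀ a, ∃ w ∈ W, lam w = a := fun a => by
    obtain ⟨m, hm, hb⟩ := h.blk_sur a
    obtain ⟨w, hw, c, hc, rfl⟩ := (hW.isProd_of_index (K := 𝒩(f.A) ⊓ 𝒩(f.S)) inf_le_right (by
      rw [inf_relIndex_right, h.index]
      exact isPiNat_singleton_pow Nat.prime_two 3)).2.2 m hm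
    rw [b_eq (hW.le hw) hm (by simpa using hc.1)] at hb
    refine ⟨w, hw, h.b_uniq (fun x => ?_) hb⟩
    rw [mem_cj']
    exact ⟨fun ⟨r, hr, e⟩ => ⟨r, hr, e.trans (hlam w hw r hr)⟩,
      fun ⟨r, hr, e⟩ => ⟨r, hr, e.trans (hlam w hw r hr).symm⟩⟩
  have TM : wfT f φ ≤ 𝒩(f.S) := fun _ hx => hx.1
  have hW' := hW.cj_of_mem f.h0_nS
  obtain ⟨c, hc, e⟩ := sylowOf_conj (hW'.sub (h.wf_le hW'.le hW'.pi) TM) (hW.sub WT TM)
  obtain ⟨c1, c2, μ, c3⟩ := hc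
  obtain ⟨w, hw, rfl⟩ := sur μ
  have nW : w * c * f.h0 ∈ 𝒩(W) := by
    rw [mul_assoc]
    exact mul_mem (le_normalizer hw) (mem_norm_of_cj_le (by rw [cj_mul, e]))
  have nS : w * c * f.h0 ∈ 𝒩(f.S) := mul_mem (mul_mem (hW.le hw) c1) f.h0_nS
  have nr : ∀ r ∈ f.R, w * c * f.h0 * r = r * (w * c * f.h0) := fun r hr => by
    calc w * c * f.h0 * r = w * (c * r * c⁻¹) * (c * f.h0) := by
          rw [mul_assoc (w * c), f.h0_r hr]; group
      _ = w * r * w⁻¹ * (w * f.z (lam w * φ r)) * (c * f.h0) := by rw [c3 r hr]; group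
      _ = _ := by
          rw [hlam w hw r hr, wz w hw, mul_assoc r, ← mul_assoc (f.z _), f.z_sq]; group
  have nz : ∀ b, w * c * f.h0 * f.z b * (w * c * f.h0)⁻¹ = f.z (N (k 2) * b) := fun b => by
    rw [show w * c * f.h0 * f.z b * (w * c * f.h0)⁻¹ =
      w * (c * (f.h0 * f.z b * f.h0⁻¹) * c⁻¹) * w⁻¹ by group, f.h0_z, c2, mul_inv_cancel_right, wz w hw,
      mul_inv_cancel_right]
  generalize w * c * f.h0 = n at nW nS nr nz
  have nA : n ∈ 𝒩(f.A) := f.cN (f.R_le hr0) (h.el _ hr0) n0 (mem_cent1.2 (nr _ hr0))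
  have nu : ∀ a b, ∃ b', n * f.u a b * n⁻¹ = f.u (k 2 * a) b' := fun a b => by
    obtain ⟨a', b', e⟩ := f.mem_Q.1 (f.S_inf_A.le
      ⟨cm_norm nS (f.Q_le_S (f.u_mem_Q a b)), cm_norm nA (f.u_mem_A a b)⟩)
    have := f.u_sq a' b'
    rw [← e, b_cjsq, f.u_sq, nz, f.z_inj, ← N_mul] at this
    exact ⟨b', by rw [e, N_inj this]⟩
  obtain ⟨i, io, ie⟩ := exists_odd_part n (r := 7) (by decide)
  have li : k 2 ^ i = k 2 := by
    rw [pow_eq_pow_mod i (show k 2 ^ 7 = 1 by decide +kernel), ie]; exact pow_one _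
  have hu : ∀ a b, ∃ b', n ^ i * f.u a b * (n ^ i)⁻¹ = f.u (k 2 * a) b' := fun a b =>
    li ▸ wf_pow nu i a b
  refine ⟨{ toFr := f, φ := φ, W := W, h := n ^ i, lam := lam, el := h.el, φ_mul := h.mul,
            φ_inj := h.inj, φ_rng := rng, sylW := hW, lam_mul := fun v hv w hw => ?_,
            lam_ker := fun w hw => ⟨fun e => ?_, fun e => ?_⟩, lam_sur := sur, w_r := hlam, w_z := wz,
            w_a := fun w hw => ?_, h_odd := io, h_W := pow_mem nW i,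
            h_r := fun r hr => ((show Commute n r from nr r hr).pow_left i).eq, h_u := hu,
            h_z := fun b => ?_ }, rfl⟩
  · have := hlam _ (mul_mem hv hw) r0 hr0
    rw [show v * w * r0 * (v * w)⁻¹ = v * (w * r0 * w⁻¹) * v⁻¹ by group, hlam w hw r0 hr0,
      show v * (r0 * f.z (lam w * φ r0)) * v⁻¹ = v * r0 * v⁻¹ * (v * f.z (lam w * φ r0) * v⁻¹) by group,
      hlam v hv r0 hr0, wz v hv, mul_inv_cancel_right, mul_assoc, f.z_mul, ← add_mul, mul_right_inj,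
      f.z_inj] at this
    exact (mul_right_cancel₀ p0 this).symm
  · have := hlam w hw r0 hr0
    rw [e, zero_mul, f.z_zero, mul_one, mul_inv_eq_iff_eq_mul] at this
    rw [f.sylS.eq_of_le (le_inf SW f.S_le_N) inf_le_right (hW.pi.inf_left _)]
    exact ⟨hw, f.cN (f.R_le hr0) (h.el _ hr0) n0 (mem_cent1.2 this)⟩
  · have := hlam w hw r0 hr0
    rw [← mem_cent.1 (b_SU h.el e) r0 (f.R_le_U hr0), mul_inv_cancel_right, left_eq_mul, f.z_eq_one] at this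
    exact (mul_eq_zero.1 this).resolve_right p0
  · obtain ⟨n, hn⟩ := pow_of_pg (hW.pi.isPGroup Nat.prime_two) hw
    exact (two_cent h.el (hW.le hw) hn).2
  · obtain ⟨a, rfl⟩ := N_surj b
    obtain ⟨b', e⟩ := hu a 0
    rw [← f.u_sq a 0, ← b_cjsq, e, f.u_sq, N_mul]

end Fr

end Cfsg.Agent.SZR
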